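/-
The standard automorphisms of `PSL_n(F)`: conjugation, field and inverse-transpose automorphisms.
-/
import Mathlib
import Cfsg.Prelude.Def_LieTypeDatum
import Cfsg.Agent.Lib.Classical.SLGroup

set_option autoImplicit false

namespace Cfsg.Lib.Classical.PSLAut

open Matrix
open scoped MatrixGroups

variable {n : ℕ} {F : Type*} [Field F]

local notation "SLn" => Matrix.SpecialLinearGroup (Fin n) F
local notation "PSLn" => Matrix.ProjectiveSpecialLinearGroup (Fin n) F

/-- An automorphism of `SL` read on the central quotient. -/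
def toP : MulAut SLn →* MulAut PSLn where
  toFun e := QuotientGroup.congr (Subgroup.center SLn) (Subgroup.center SLn) e
    (Subgroup.characteristic_iff_map_eq.1 inferInstance e)
  map_one' := MulEquiv.ext fun x => by induction x using QuotientGroup.induction_on; rfl
  map_mul' a b := MulEquiv.ext fun x => by induction x using QuotientGroup.induction_on; rfl

@[simp] theorem toP_mk (e : MulAut SLn) (s : SLn) :
    toP e (QuotientGroup.mk s) = QuotientGroup.mk (e s) := rfl

/-- Conjugation by an invertible matrix, on `SL`. -/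
def conjSLHom : GL (Fin n) F →* MulAut SLn where
  toFun g :=
    { toFun := fun s => ⟨(g : Matrix (Fin n) (Fin n) F) * s.1 * (g⁻¹ : GL (Fin n) F), by
        rw [Matrix.det_units_conj, s.2]⟩
      invFun := fun s => ⟨((g⁻¹ : GL (Fin n) F) : Matrix (Fin n) (Fin n) F) * s.1 * g, by
        have := Matrix.det_units_conj g⁻¹ s.1
        rw [inv_inv] at this
        rw [this, s.2]⟩
      left_inv := fun s => Subtype.ext (by
        show ((g⁻¹ : GL (Fin n) F) : Matrix (Fin n) (Fin n) F) * (_ * s.1 * _) * g = s.1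
        rw [mul_assoc, mul_assoc, Units.inv_mul, mul_one, ← mul_assoc, Units.inv_mul, one_mul])
      right_inv := fun s => Subtype.ext (by
        show (g : Matrix (Fin n) (Fin n) F) * (_ * s.1 * _) * _ = s.1
        rw [mul_assoc, mul_assoc, Units.mul_inv, mul_one, ← mul_assoc, Units.mul_inv, one_mul])
      map_mul' := fun s t => Subtype.ext (by
        show (g : Matrix (Fin n) (Fin n) F) * (s.1 * t.1) * _ = (_ * s.1 * _) * (_ * t.1 * _)
        simp only [mul_assoc]
        rw [Units.inv_mul_cancel_left]) }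
  map_one' := MulEquiv.ext fun s => Subtype.ext (by
    show ((1 : GL (Fin n) F) : Matrix (Fin n) (Fin n) F) * s.1 * _ = s.1
    simp)
  map_mul' a b := MulEquiv.ext fun s => Subtype.ext (by
    show ((a * b : GL (Fin n) F) : Matrix (Fin n) (Fin n) F) * s.1 * _ = _ * (_ * s.1 * _) * _
    simp only [_root_.mul_inv_rev, Units.val_mul, mul_assoc])

@[simp] theorem coe_conjSLHom (g : GL (Fin n) F) (s : SLn) :
    ((conjSLHom g s : SLn) : Matrix (Fin n) (Fin n) F) =
      (g : Matrix (Fin n) (Fin n) F) * s.1 * (g⁻¹ : GL (Fin n) F) := rfl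

/-- A field automorphism on `SL`. -/
def frobSL (σ : F ≃+* F) : MulAut SLn where
  toFun := SpecialLinearGroup.map (σ : F →+* F)
  invFun := SpecialLinearGroup.map (σ.symm : F →+* F)
  left_inv s := Subtype.ext (by ext i j; simp)
  right_inv s := Subtype.ext (by ext i j; simp)
  map_mul' := map_mul _

@[simp] theorem coe_frobSL (σ : F ≃+* F) (s : SLn) :
    ((frobSL σ s : SLn) : Matrix (Fin n) (Fin n) F) = s.1.map σ := rfl

/-- Inverse transpose on `SL`. -/
def itSL : MulAut SLn where
  toFun s := ⟨(s⁻¹ : SLn).1ᵀ, by rw [det_transpose]; exact (s⁻¹ : SLn).2⟩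
  invFun s := ⟨(s⁻¹ : SLn).1ᵀ, by rw [det_transpose]; exact (s⁻¹ : SLn).2⟩
  left_inv s := Subtype.ext (by
    show (adjugate ((s⁻¹ : SLn).1ᵀ))ᵀ = s.1
    rw [adjugate_transpose, transpose_transpose, ← Matrix.SpecialLinearGroup.coe_inv, inv_inv])
  right_inv s := Subtype.ext (by
    show (adjugate ((s⁻¹ : SLn).1ᵀ))ᵀ = s.1
    rw [adjugate_transpose, transpose_transpose, ← Matrix.SpecialLinearGroup.coe_inv, inv_inv])
  map_mul' s t := Subtype.ext (by
    show ((s * t)⁻¹ : SLn).1ᵀ = (s⁻¹ : SLn).1ᵀ * (t⁻¹ : SLn).1ᵀ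
    rw [_root_.mul_inv_rev, Matrix.SpecialLinearGroup.coe_mul, transpose_mul])

@[simp] theorem coe_itSL (s : SLn) : ((itSL s : SLn) : Matrix (Fin n) (Fin n) F) = (s⁻¹ : SLn).1ᵀ := rfl

/-- `g ↦` the automorphism of `PSL` induced by conjugation. -/
def conjP : GL (Fin n) F →* MulAut PSLn := toP.comp conjSLHom

/-- The standard field automorphism. -/
def frobP (σ : F ≃+* F) : MulAut PSLn := toP (frobSL σ)

/-- The inverse-transpose automorphism. -/
def itP : MulAut PSLn := toP itSL

@[simp] theorem conjP_mk (g : GL (Fin n) F) (s : SLn) :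
    conjP g (QuotientGroup.mk s) = QuotientGroup.mk (conjSLHom g s) := rfl
@[simp] theorem frobP_mk (σ : F ≃+* F) (s : SLn) :
    frobP σ (QuotientGroup.mk s) = QuotientGroup.mk (frobSL σ s) := rfl
@[simp] theorem itP_mk (s : SLn) : itP (QuotientGroup.mk s) = QuotientGroup.mk (itSL s) := rfl

theorem isInnerDiagonal_iff {β : MulAut PSLn} : IsInnerDiagonalAutPSL β ↔ ∃ g, β = conjP g := by
  constructor
  · rintro ⟨g, hg⟩
    refine ⟨g, MulEquiv.ext fun x => ?_⟩
    induction x using QuotientGroup.induction_on with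
    | H s => exact hg s (conjSLHom g s) rfl
  · rintro ⟨g, rfl⟩
    exact ⟨g, fun s s' h => congrArg QuotientGroup.mk (Subtype.ext h.symm)⟩

theorem isStdField_iff {σ : F ≃+* F} {β : MulAut PSLn} : IsStdFieldAutPSL σ β ↔ β = frobP σ := by
  constructor
  · intro h
    refine MulEquiv.ext fun x => ?_
    induction x using QuotientGroup.induction_on with
    | H s => exact h s (frobSL σ s) rfl
  · rintro rfl s s' h
    exact congrArg QuotientGroup.mk (Subtype.ext h.symm)

theorem isInverseTranspose_iff {β : MulAut PSLn} : IsInverseTransposeAutPSL β ↔ β = itP := by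
  constructor
  · intro h
    refine MulEquiv.ext fun x => ?_
    induction x using QuotientGroup.induction_on with
    | H s => exact h s (itSL s) rfl
  · rintro rfl s s' h
    exact congrArg QuotientGroup.mk (Subtype.ext h.symm)

theorem inndiag_eq : inndiagPSL n F = (conjP (n := n) (F := F)).range := by
  refine le_antisymm ((Subgroup.closure_le _).2 fun β hβ => ?_) ?_
  · obtain ⟨g, rfl⟩ := isInnerDiagonal_iff.1 hβ
    exact ⟨g, rfl⟩
  · rintro β ⟨g, rfl⟩
    exact Subgroup.subset_closure (isInnerDiagonal_iff.2 ⟨g, rfl⟩)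

theorem frobP_mul (σ τ : F ≃+* F) :
    frobP (n := n) σ * frobP τ = frobP (σ * τ) := by
  rw [frobP, frobP, frobP, ← map_mul]
  congr 1

theorem frobP_one : frobP (n := n) (1 : F ≃+* F) = 1 := by
  rw [frobP, ← map_one toP]
  congr 1

/-- The field automorphisms as a homomorphism. -/
def frobHom : (F ≃+* F) →* MulAut PSLn where
  toFun := frobP
  map_one' := frobP_one
  map_mul' σ τ := (frobP_mul σ τ).symm

@[simp] theorem frobHom_apply (σ : F ≃+* F) : frobHom (n := n) σ = frobP σ := rfl

theorem itP_mul_itP : itP (n := n) (F := F) * itP = 1 := by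
  rw [itP, ← map_mul, ← map_one toP]
  congr 1
  exact MulEquiv.ext fun s => (itSL : MulAut SLn).left_inv s

theorem itP_inv : (itP (n := n) (F := F))⁻¹ = itP := inv_eq_of_mul_eq_one_right itP_mul_itP

/-- Apply a field automorphism to an invertible matrix. -/
abbrev mapGL (σ : F ≃+* F) : GL (Fin n) F →* GL (Fin n) F :=
  Matrix.GeneralLinearGroup.map (σ : F →+* F)

theorem frobP_conjP (σ : F ≃+* F) (g : GL (Fin n) F) :
    frobP σ * conjP g = conjP (mapGL σ g) * frobP σ := by
  rw [frobP, conjP, MonoidHom.comp_apply, MonoidHom.comp_apply, ← map_mul, ← map_mul]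
  congr 1
  refine MulEquiv.ext fun s => Subtype.ext ?_
  show ((g : Matrix (Fin n) (Fin n) F) * s.1 * (g⁻¹ : GL (Fin n) F)).map (σ : F →+* F) =
    ((g : Matrix (Fin n) (Fin n) F).map (σ : F →+* F)) * s.1.map (σ : F →+* F) * _
  rw [Matrix.map_mul, Matrix.map_mul]
  congr 1

/-- The inverse transpose of an invertible matrix. -/
def itGL (g : GL (Fin n) F) : GL (Fin n) F :=
  ⟨((g⁻¹ : GL (Fin n) F) : Matrix (Fin n) (Fin n) F)ᵀ, (g : Matrix (Fin n) (Fin n) F)ᵀ,
    by rw [← transpose_mul, Units.mul_inv, transpose_one],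
    by rw [← transpose_mul, Units.inv_mul, transpose_one]⟩

@[simp] theorem coe_itGL (g : GL (Fin n) F) :
    ((itGL g : GL (Fin n) F) : Matrix (Fin n) (Fin n) F) = ((g⁻¹ : GL (Fin n) F) : Matrix (Fin n) (Fin n) F)ᵀ :=
  rfl

@[simp] theorem coe_itGL_inv (g : GL (Fin n) F) :
    (((itGL g)⁻¹ : GL (Fin n) F) : Matrix (Fin n) (Fin n) F) = (g : Matrix (Fin n) (Fin n) F)ᵀ :=
  rfl

theorem itP_conjP (g : GL (Fin n) F) : itP * conjP g = conjP (itGL g) * itP := by
  rw [itP, conjP, MonoidHom.comp_apply, MonoidHom.comp_apply, ← map_mul, ← map_mul]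
  congr 1
  refine MulEquiv.ext fun s => Subtype.ext ?_
  show ((conjSLHom g s)⁻¹ : SLn).1ᵀ = _ * (s⁻¹ : SLn).1ᵀ * _
  rw [← map_inv, coe_conjSLHom, transpose_mul, transpose_mul, coe_itGL, coe_itGL_inv, mul_assoc]

theorem frobP_itP (σ : F ≃+* F) : frobP σ * itP = itP (n := n) * frobP σ := by
  rw [frobP, itP, ← map_mul, ← map_mul]
  congr 1
  refine MulEquiv.ext fun s => Subtype.ext ?_
  show ((s⁻¹ : SLn).1ᵀ).map σ = ((frobSL σ s)⁻¹ : SLn).1ᵀ
  rw [← map_inv, coe_frobSL, transpose_map]

/-! ### Elements fixing a common vector -/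

theorem center_scalar {z : SLn} (hz : z ∈ Subgroup.center SLn) :
    ∃ r : F, z.1 = r • (1 : Matrix (Fin n) (Fin n) F) := by
  obtain ⟨r, -, hr⟩ := Matrix.SpecialLinearGroup.mem_center_iff.1 hz
  exact ⟨r, by rw [← hr, scalar_apply, ← smul_one_eq_diagonal]⟩

theorem mk_eq_iff {a b : SLn} :
    (QuotientGroup.mk a : PSLn) = QuotientGroup.mk b ↔ ∃ r : F, r ^ n = 1 ∧ b.1 = r • a.1 := by
  rw [QuotientGroup.eq, Matrix.SpecialLinearGroup.mem_center_iff, Fintype.card_fin]
  refine exists_congr fun r => and_congr_right fun _ => ?_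
  rw [scalar_apply, ← smul_one_eq_diagonal]
  constructor
  · intro h
    have e : b = a * (a⁻¹ * b) := by group
    conv_lhs => rw [e, Matrix.SpecialLinearGroup.coe_mul, ← h]
    rw [mul_smul_comm, mul_one]
  · intro h
    rw [Matrix.SpecialLinearGroup.coe_mul, h, mul_smul_comm, ← Matrix.SpecialLinearGroup.coe_mul, inv_mul_cancel,
      Matrix.SpecialLinearGroup.coe_one]

/-- Elements with a common fixed vector are determined by their projective images. -/
theorem eq_of_mk_eq {a b : SLn} {v : Fin n → F} (hv : v ≠ 0) (ha : a.1 *ᵥ v = v) (hb : b.1 *ᵥ v = v)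
    (h : (QuotientGroup.mk a : PSLn) = QuotientGroup.mk b) : a = b := by
  obtain ⟨r, -, hr⟩ := mk_eq_iff.1 h
  have h2 : r • v = v := by
    have h3 := hb
    rwa [hr, smul_mulVec, ha] at h3
  have hr1 : r = 1 := by
    by_contra hr1
    have h4 : (r - 1) • v = 0 := by rw [sub_smul, one_smul, h2, sub_self]
    exact hv ((smul_eq_zero.1 h4).resolve_left (sub_ne_zero.2 hr1))
  exact Subtype.ext (by rw [hr, hr1, one_smul])

end Cfsg.Lib.Classical.PSLAut
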