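/-
Root groups of `PSL_n(F)`: an automorphism maps root groups to root groups.
-/
import Mathlib
import Cfsg.Agent.Lib.Classical.PSLAut.Basic
import Cfsg.Agent.Lib.UnipotentGL.ParabolicIndex

set_option autoImplicit false

open scoped Classical

namespace Cfsg.Lib.Classical.PSLAut

open Matrix
open Cfsg.Lib.Classical (tv det_tv tv_mulVec conj_tv transvection_eq_tv)
open scoped MatrixGroups

variable {n : ℕ} {F : Type*} [Field F]

local notation "SLn" => Matrix.SpecialLinearGroup (Fin n) F
local notation "PSLn" => Matrix.ProjectiveSpecialLinearGroup (Fin n) F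

/-- The transvection `x ↦ x + φ(x) v` (the identity if `φ v ≠ 0`). -/
noncomputable def tvS (v φ : Fin n → F) : SLn :=
  if h : φ ⬝ᵥ v = 0 then (⟨tv v φ, by rw [det_tv, h, add_zero]⟩ : SLn) else 1

theorem coe_tvS {v φ : Fin n → F} (h : φ ⬝ᵥ v = 0) : (tvS v φ).1 = tv v φ := by
  exact congrArg Subtype.val (dif_pos h)

theorem tvS_mulVec {v φ : Fin n → F} (h : φ ⬝ᵥ v = 0) (x : Fin n → F) :
    (tvS v φ).1 *ᵥ x = x + (φ ⬝ᵥ x) • v := by rw [coe_tvS h, tv_mulVec]

theorem ext_mulVec' {a b : SLn} (h : ∀ x, a.1 *ᵥ x = b.1 *ᵥ x) : a = b :=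
  Subtype.ext (Cfsg.Lib.Classical.ext_mulVec h)

/-- The basis vector. -/
noncomputable abbrev ev (i : Fin n) : Fin n → F := Pi.single i 1

theorem ev_dot {i j : Fin n} (h : i ≠ j) : (ev i : Fin n → F) ⬝ᵥ ev j = 0 := by simp [ev, h]

/-- The elementary root element. -/
noncomputable def xs (i j : Fin n) (t : F) : SLn := tvS (t • ev i) (ev j)

theorem xs_eq_transvection {i j : Fin n} (h : i ≠ j) (t : F) :
    xs i j t = Matrix.SpecialLinearGroup.transvection h t := by
  refine ext_mulVec' fun x => ?_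
  rw [xs, tvS_mulVec (by rw [dotProduct_smul, ev_dot h.symm, smul_zero]),
    show (Matrix.SpecialLinearGroup.transvection h t).1 = Matrix.transvection i j t from rfl,
    Cfsg.Lib.Classical.transvection_mulVec, smul_smul, single_dotProduct, one_mul, mul_comm t]

theorem xs_mulVec {i j : Fin n} (h : i ≠ j) (t : F) (x : Fin n → F) :
    (xs i j t).1 *ᵥ x = x + (t * x j) • ev i := by
  rw [xs_eq_transvection h, show (Matrix.SpecialLinearGroup.transvection h t).1 = Matrix.transvection i j t from rfl,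
    Cfsg.Lib.Classical.transvection_mulVec]

theorem xs_apply {i j : Fin n} (h : i ≠ j) (t : F) (k l : Fin n) :
    (xs i j t).1 k l = (if k = l then 1 else 0) + (if k = i ∧ l = j then t else 0) := by
  rw [xs_eq_transvection h, show (Matrix.SpecialLinearGroup.transvection h t).1 = Matrix.transvection i j t from rfl,
    Matrix.transvection, Matrix.add_apply, Matrix.one_apply, Matrix.single_apply]
  simp only [eq_comm (a := i), eq_comm (a := j)]

theorem tvS_smul {v φ : Fin n → F} (h : φ ⬝ᵥ v = 0) (c : F) :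
    tvS (c • v) φ = tvS v (c • φ) := by
  refine ext_mulVec' fun x => ?_
  rw [tvS_mulVec (by rw [dotProduct_smul, h, smul_zero]), tvS_mulVec (by rw [smul_dotProduct, h, smul_zero]),
    smul_smul, smul_dotProduct, smul_eq_mul, mul_comm]

theorem tvS_inv {v φ : Fin n → F} (h : φ ⬝ᵥ v = 0) : (tvS v φ)⁻¹ = tvS (-v) φ := by
  refine inv_eq_of_mul_eq_one_right (Subtype.ext ?_)
  rw [Matrix.SpecialLinearGroup.coe_mul, coe_tvS h, coe_tvS (by simp [h]),
    Cfsg.Lib.Classical.tv_mul_neg _ _ h, Matrix.SpecialLinearGroup.coe_one]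

theorem tvS_mul {v w φ : Fin n → F} (h : φ ⬝ᵥ v = 0) (h' : φ ⬝ᵥ w = 0) :
    tvS v φ * tvS w φ = tvS (v + w) φ := by
  refine Subtype.ext ?_
  rw [Matrix.SpecialLinearGroup.coe_mul, coe_tvS h, coe_tvS h', coe_tvS (by rw [dotProduct_add, h, h', add_zero]),
    Cfsg.Lib.Classical.tv_mul_left _ _ _ h']

theorem xs_add {i j : Fin n} (h : i ≠ j) (a b : F) : xs i j (a + b) = xs i j a * xs i j b := by
  rw [xs, xs, xs, tvS_mul (by rw [dotProduct_smul, ev_dot h.symm, smul_zero])
    (by rw [dotProduct_smul, ev_dot h.symm, smul_zero]), add_smul]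

theorem xs_zero {i j : Fin n} (h : i ≠ j) : xs i j (0 : F) = 1 := by
  rw [xs_eq_transvection h, Matrix.SpecialLinearGroup.transvection_coeff_zero]

theorem conj_tvS (g : SLn) {v φ : Fin n → F} (h : φ ⬝ᵥ v = 0) :
    g * tvS v φ * g⁻¹ = tvS (g.1 *ᵥ v) (φ ᵥ* (g⁻¹ : SLn).1) := by
  have h' : (φ ᵥ* (g⁻¹ : SLn).1) ⬝ᵥ (g.1 *ᵥ v) = 0 := by
    rw [← dotProduct_mulVec, mulVec_mulVec, ← Matrix.SpecialLinearGroup.coe_mul, inv_mul_cancel,
      Matrix.SpecialLinearGroup.coe_one, one_mulVec, h]
  refine Subtype.ext ?_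
  rw [coe_tvS h', Matrix.SpecialLinearGroup.coe_mul, Matrix.SpecialLinearGroup.coe_mul, coe_tvS h, tv, tv,
    mul_add, mul_one, add_mul, ← Matrix.SpecialLinearGroup.coe_mul, mul_inv_cancel,
    Matrix.SpecialLinearGroup.coe_one, mul_vecMulVec, vecMulVec_mul]

/-- The projective root element. -/
noncomputable def xp (i j : Fin n) (t : F) : PSLn := QuotientGroup.mk (xs i j t)

theorem xp_eq (i j : Fin n) (t : F) : xp i j t = QuotientGroup.mk (xs i j t) := rfl

theorem exists_common_fixed (hn : 3 ≤ n) (φ χ : Fin n → F) :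
    ∃ x : Fin n → F, x ≠ 0 ∧ φ ⬝ᵥ x = 0 ∧ χ ⬝ᵥ x = 0 := by
  let L : (Fin n → F) →ₗ[F] Fin 2 → F := Matrix.mulVecLin (Matrix.of ![φ, χ])
  have hL : LinearMap.ker L ≠ ⊥ := by
    intro h
    have h1 := LinearMap.finrank_le_finrank_of_injective (LinearMap.ker_eq_bot.1 h)
    rw [Module.finrank_fintype_fun_eq_card, Module.finrank_fintype_fun_eq_card, Fintype.card_fin,
      Fintype.card_fin] at h1
    omega
  obtain ⟨x, hx, hx0⟩ := Submodule.exists_mem_ne_zero_of_ne_bot hL
  have h := LinearMap.mem_ker.1 hx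
  exact ⟨x, hx0, congrFun h 0, congrFun h 1⟩

theorem xp_injective {i j : Fin n} (h : i ≠ j) : Function.Injective (xp (F := F) i j) := by
  intro a b hab
  have hv : ev i ≠ (0 : Fin n → F) := by simp [ev]
  have hfix : ∀ t : F, (xs i j t).1 *ᵥ ev i = ev i := fun t => by
    rw [xs_mulVec h]; simp [ev, h.symm]
  have e := congrArg (fun m : SLn => m.1 i j) (eq_of_mk_eq hv (hfix a) (hfix b) hab)
  simpa [xs_apply h, h] using e

/-! ### The unipotent upper triangular subgroup -/

variable (n F) in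
/-- Upper unitriangular elements of `SL`. -/
def Usl : Subgroup SLn where
  carrier := {s | ∀ i j : Fin n, j ≤ i → s.1 i j = if i = j then 1 else 0}
  one_mem' := fun i j _ => by rw [Matrix.SpecialLinearGroup.coe_one, Matrix.one_apply]
  mul_mem' := by
    intro a b ha hb i j hij
    rw [Matrix.SpecialLinearGroup.coe_mul, Matrix.mul_apply]
    rw [Finset.sum_eq_single i]
    · rw [ha i i le_rfl, if_pos rfl, one_mul, hb i j hij]
    · intro k _ hk
      rcases lt_or_gt_of_ne hk with h | h
      · rw [ha i k h.le, if_neg (Ne.symm hk), zero_mul]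
      · rw [hb k j (hij.trans h.le), if_neg (c := k = j) (fun e => absurd (e ▸ h : i < j) (not_lt.2 hij)), mul_zero]
    · exact fun h => absurd (Finset.mem_univ i) h
  inv_mem' := by
    intro a ha i j hij
    have key : ∀ d : ℕ, ∀ i j : Fin n, j ≤ i → n - (i : ℕ) ≤ d →
        (a⁻¹ : SLn).1 i j = if i = j then 1 else 0 := by
      intro d
      induction d with
      | zero => intro i j _ hd; have := i.2; omega
      | succ d ih =>
        intro i j hij hd
        have h1 : (a * a⁻¹ : SLn).1 i j = if i = j then 1 else 0 := by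
          rw [mul_inv_cancel, Matrix.SpecialLinearGroup.coe_one, Matrix.one_apply]
        rw [Matrix.SpecialLinearGroup.coe_mul, Matrix.mul_apply, Finset.sum_eq_single i] at h1
        · rwa [ha i i le_rfl, if_pos rfl, one_mul] at h1
        · intro k _ hk
          rcases lt_or_gt_of_ne hk with h | h
          · rw [ha i k h.le, if_neg (Ne.symm hk), zero_mul]
          · rw [ih k j (hij.trans h.le) (by have : (i : ℕ) < k := h; omega),
              if_neg (c := k = j) (fun e => absurd (e ▸ h : i < j) (not_lt.2 hij)), mul_zero]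
        · exact fun h => absurd (Finset.mem_univ i) h
    exact key n i j hij (by omega)

variable (n F) in
/-- The image of the unitriangular group in `PSL`. -/
def Ubar : Subgroup PSLn := (Usl n F).map (QuotientGroup.mk' _)

theorem xs_mem_Usl {i j : Fin n} (h : i < j) (t : F) : xs i j t ∈ Usl n F := by
  intro k l hlk
  rw [xs_apply h.ne, if_neg (c := k = i ∧ l = j) (fun hh => absurd (hh.1 ▸ hh.2 ▸ hlk : j ≤ i) (not_le.2 h)),
    add_zero]

theorem Usl_fix {s : SLn} (hs : s ∈ Usl n F) {a : Fin n} (ha : ∀ k, a ≤ k) : s.1 *ᵥ ev a = ev a := by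
  funext k
  rw [mulVec_single_one, col_apply, hs k a (ha k)]
  simp [ev, Pi.single_apply]

theorem card_Usl [Fintype F] : Nat.card (Usl n F) = Fintype.card F ^ (∑ i ∈ Finset.range n, i) := by
  let L := {p : Fin n × Fin n // p.1 < p.2}
  let M : (L → F) → Matrix (Fin n) (Fin n) F := fun f =>
    Matrix.of fun i j => if h : i < j then f ⟨(i, j), h⟩ else if i = j then 1 else 0
  have hdet : ∀ f, (M f).det = 1 := fun f => by
    rw [Matrix.det_of_isUpperTriangular (fun i j h => by
      have h' : j < i := h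
      simp [M, h'.not_gt, h'.ne'])]
    simp [M]
  have e : Usl n F ≃ (L → F) :=
    { toFun := fun s p => s.1.1 p.1.1 p.1.2
      invFun := fun f => ⟨⟨M f, hdet f⟩, fun i j hij => by
        show M f i j = _
        simp [M, not_lt.2 hij]⟩
      left_inv := fun s => Subtype.ext (Subtype.ext (Matrix.ext fun i j => by
        show (Matrix.of fun i j => if h : i < j then s.1.1 i j else if i = j then (1 : F) else 0) i j = _
        rw [Matrix.of_apply]
        by_cases h : i < j
        · rw [dif_pos h]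
        · rw [dif_neg h, s.2 i j (not_lt.1 h)]))
      right_inv := fun f => funext fun p => by
        show M f p.1.1 p.1.2 = f p
        simp [M, p.2] }
  have hL : Fintype.card L = ∑ i ∈ Finset.range n, i := by
    rw [← Fintype.card_congr ((Equiv.prodComm (Fin n) (Fin n)).subtypeEquiv (q := fun p => p.1 < p.2)
      (p := fun p => p.2 < p.1) fun _ => Iff.rfl),
      Fintype.card_congr (Equiv.subtypeProdEquivSigmaSubtype fun a b : Fin n => b < a), Fintype.card_sigma,
      ← Fin.sum_univ_eq_sum_range (fun i => i) n]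
    refine Finset.sum_congr rfl fun i _ => ?_
    rw [Fintype.card_subtype, show (Finset.univ.filter fun b : Fin n => b < i) = Finset.Iio i by ext; simp,
      Fin.card_Iio]
  rw [Nat.card_congr e, Nat.card_fun, Nat.card_eq_fintype_card, Nat.card_eq_fintype_card, hL]

theorem exists_conj_Ubar [Fintype F] {p : ℕ} [Fact p.Prime] [CharP F p] (β : MulAut PSLn) :
    ∃ g : PSLn, ∀ x ∈ Ubar n F, g⁻¹ * β x * g ∈ Ubar n F := by
  obtain ⟨f, -, hq⟩ := FiniteField.card F p
  have hU : IsPGroup p (Usl n F) := IsPGroup.of_card (n := f * (∑ i ∈ Finset.range n, i))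
    (by rw [card_Usl, hq, ← pow_mul])
  have hidx : ¬ p ∣ (Usl n F).index := by
    have hq2 : 1 < Fintype.card F := Fintype.one_lt_card
    have h1 := Cfsg.Agent.UnipotentGL.card_GL_qFact (q := Fintype.card F) (F := F) rfl n
    have hdet : Function.Surjective (Matrix.GeneralLinearGroup.det : GL (Fin n) F →* Fˣ) ∨ n = 0 := by
      rcases Nat.eq_zero_or_pos n with h0 | h0
      · exact Or.inr h0
      refine Or.inl fun u => ⟨Matrix.GeneralLinearGroup.mkOfDetNeZero
        (Matrix.diagonal (Function.update 1 ⟨0, h0⟩ (u : F))) ?_, Units.ext ?_⟩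
      · simp [Matrix.det_diagonal, Finset.prod_update_of_mem]
      · simp [Matrix.det_diagonal, Finset.prod_update_of_mem]
    have hq1 : ¬ p ∣ Cfsg.Agent.UnipotentGL.qFact (Fintype.card F) n := by
      rw [Cfsg.Agent.UnipotentGL.qFact, (Nat.Prime.prime Fact.out).dvd_finsetProd_iff]
      rintro ⟨j, -, hj⟩
      rw [Finset.sum_range_succ', pow_zero] at hj
      exact (Fact.out : p.Prime).not_dvd_one ((Nat.dvd_add_right (Finset.dvd_sum fun k _ =>
        dvd_pow (hq ▸ dvd_pow_self p f.ne_zero) (Nat.succ_ne_zero k))).1 hj)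
    rcases hdet with hdet | h0
    · have h2 := (Matrix.GeneralLinearGroup.det : GL (Fin n) F →* Fˣ).ker.card_mul_index
      rw [Subgroup.index_ker, MonoidHom.range_eq_top.2 hdet, Subgroup.card_top, Nat.card_units,
        Nat.card_eq_fintype_card (α := F)] at h2
      have e : SLn ≃ (Matrix.GeneralLinearGroup.det : GL (Fin n) F →* Fˣ).ker :=
        { toFun := fun s => ⟨Matrix.SpecialLinearGroup.toGL s, Units.ext (by simp)⟩
          invFun := fun g => ⟨g.1.1, by
            have := congrArg Units.val (MonoidHom.mem_ker.1 g.2); simpa using this⟩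
          left_inv := fun s => rfl
          right_inv := fun g => Subtype.ext (Units.ext rfl) }
      rw [← Nat.card_congr e, ← (Usl n F).card_mul_index, card_Usl, h1] at h2
      intro hp
      apply hq1
      have hn : n ≠ 0 ∨ n = 0 := ne_or_eq _ _
      obtain ⟨r, hr⟩ := hp
      rw [hr] at h2
      have hpos : 0 < Fintype.card F ^ (∑ i ∈ Finset.range n, i) := pow_pos (by omega) _
      have h3 : p * r * (Fintype.card F - 1) =
          (Fintype.card F - 1) ^ n * Cfsg.Agent.UnipotentGL.qFact (Fintype.card F) n := by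
        refine Nat.eq_of_mul_eq_mul_left hpos ?_
        simp only [mul_assoc] at h2 ⊢
        exact h2
      have hcop : p.Coprime ((Fintype.card F - 1) ^ n) := by
        refine Nat.Coprime.pow_right _ ((Nat.Prime.coprime_iff_not_dvd Fact.out).2 fun h => ?_)
        have h' : p ∣ Fintype.card F := hq ▸ dvd_pow_self p f.ne_zero
        have := Nat.dvd_sub h' h
        rw [show Fintype.card F - (Fintype.card F - 1) = 1 by omega] at this
        exact (Fact.out : p.Prime).not_dvd_one this
      exact hcop.dvd_of_dvd_mul_left ⟨r * (Fintype.card F - 1), by rw [← h3, mul_assoc]⟩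
    · subst h0
      rw [show Usl 0 F = ⊤ from Subsingleton.elim _ _, Subgroup.index_top]
      exact (Fact.out : p.Prime).not_dvd_one
  have hPU : IsPGroup p (Ubar n F) := hU.map _
  have hi : ¬ p ∣ (Ubar n F).index := fun h =>
    hidx (h.trans (Subgroup.index_map_dvd (Usl n F) (QuotientGroup.mk'_surjective _)))
  let S : Sylow p PSLn := hPU.toSylow hi
  let T : Sylow p PSLn := (hPU.map β.toMonoidHom).toSylow (by
    rw [show β.toMonoidHom = (β : PSLn →* PSLn) from rfl, Subgroup.index_map_equiv]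
    exact hi)
  obtain ⟨g, hg⟩ := MulAction.exists_smul_eq PSLn S T
  refine ⟨g, fun x hx => ?_⟩
  have h : β x ∈ ((g • S : Sylow p PSLn) : Subgroup PSLn) := by
    rw [hg]; exact ⟨x, hx, rfl⟩
  rw [Sylow.coe_subgroup_smul, Subgroup.mem_pointwise_smul_iff_inv_smul_mem] at h
  simpa [MulAut.conj_symm_apply, MulDistribMulAction.toMulAut, S] using h

/-- The only central elements of the unitriangular group are in the top root group. -/
theorem exists_of_central (hn : 2 ≤ n) {a b : Fin n} (ha : ∀ k, a ≤ k) (hb : ∀ k, k ≤ b) {y : PSLn}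
    (hy : y ∈ Ubar n F) (hc : ∀ x ∈ Ubar n F, y * x = x * y) : ∃ t : F, y = xp a b t := by
  obtain ⟨u, hu, rfl⟩ := hy
  have hab : a < b := by
    refine lt_of_le_of_ne (ha b) fun e => ?_
    have h0 := ha ⟨0, by omega⟩
    have h1 := hb ⟨1, by omega⟩
    rw [e] at h0
    have := h1.trans h0
    simp [Fin.le_def] at this
  have hcomm : ∀ {i j : Fin n}, i < j → ∀ t : F, u * xs i j t = xs i j t * u := fun {i j} h t => by
    refine eq_of_mk_eq (v := ev a) (by simp [ev]) ?_ ?_ (hc _ ⟨_, xs_mem_Usl h t, rfl⟩)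
    · exact Usl_fix (mul_mem hu (xs_mem_Usl h t)) ha
    · exact Usl_fix (mul_mem (xs_mem_Usl h t) hu) ha
  have hent : ∀ i j k l : Fin n, i < j → (if l = j then u.1 k i else 0) = if k = i then u.1 j l else 0 := by
    intro i j k l h
    have e : (u * xs i j 1).1 k l = (xs i j 1 * u).1 k l := by rw [hcomm h 1]
    rw [Matrix.SpecialLinearGroup.coe_mul, Matrix.SpecialLinearGroup.coe_mul, xs_eq_transvection h.ne,
      show (Matrix.SpecialLinearGroup.transvection h.ne (1 : F)).1 = Matrix.transvection i j 1 from rfl] at e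
    by_cases hl : l = j <;> by_cases hk : k = i
    · subst hl hk; simp at e; simpa using e
    · subst hl; rw [Matrix.mul_transvection_apply_same, Matrix.transvection_mul_apply_of_ne _ _ _ _ hk, one_mul] at e
      simpa [hk] using e.symm
    · subst hk; rw [Matrix.mul_transvection_apply_of_ne _ _ _ _ hl, Matrix.transvection_mul_apply_same, one_mul] at e
      simp [hl] at e ⊢
      exact e.symm
    · simp [hl, hk]
  refine ⟨u.1 a b, congrArg QuotientGroup.mk (Subtype.ext (Matrix.ext fun k l => ?_))⟩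
  rw [xs_apply hab.ne]
  rcases le_or_gt l k with hlk | hkl
  · rw [hu k l hlk, if_neg (c := k = a ∧ l = b) (fun h => absurd (h.1 ▸ h.2 ▸ hlk : b ≤ a) (not_le.2 hab)), add_zero]
  rw [if_neg hkl.ne, zero_add]
  by_cases hkab : k = a ∧ l = b
  · rw [if_pos hkab, hkab.1, hkab.2]
  rw [if_neg hkab]
  rcases eq_or_lt_of_le (hb l) with e | hlb
  · have hka : a < k := lt_of_le_of_ne (ha k) fun e' => hkab ⟨e'.symm, e⟩
    have := hent a k k l hka
    rw [if_neg hkl.ne', if_neg hka.ne'] at this
    have h2 := hent a k a l hka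
    rw [if_pos rfl, if_neg hkl.ne'] at h2
    exact h2.symm
  · have h2 := hent l b k b hlb
    rw [if_pos rfl, if_neg hkl.ne] at h2
    exact h2

theorem comm_Ubar {a b : Fin n} (ha : ∀ k, a ≤ k) (hb : ∀ k, k ≤ b) (hab : a < b) (t : F) {x : PSLn}
    (hx : x ∈ Ubar n F) : xp a b t * x = x * xp a b t := by
  obtain ⟨u, hu, rfl⟩ := hx
  refine congrArg QuotientGroup.mk (Subtype.ext ?_)
  rw [Matrix.SpecialLinearGroup.coe_mul, Matrix.SpecialLinearGroup.coe_mul, xs_eq_transvection hab.ne,
    show (Matrix.SpecialLinearGroup.transvection hab.ne t).1 = Matrix.transvection a b t from rfl]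
  ext k l
  by_cases hk : k = a <;> by_cases hl : l = b
  · subst hk hl
    rw [Matrix.transvection_mul_apply_same, Matrix.mul_transvection_apply_same, hu l l le_rfl, hu k k le_rfl]
    simp [mul_comm]
  · subst hk
    rw [Matrix.transvection_mul_apply_same, Matrix.mul_transvection_apply_of_ne _ _ _ _ hl,
      hu b l (hb l), if_neg (Ne.symm hl), mul_zero, add_zero]
  · subst hl
    rw [Matrix.transvection_mul_apply_of_ne _ _ _ _ hk, Matrix.mul_transvection_apply_same,
      hu k a (ha k), if_neg hk, mul_zero, add_zero]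
  · rw [Matrix.transvection_mul_apply_of_ne _ _ _ _ hk, Matrix.mul_transvection_apply_of_ne _ _ _ _ hl]

theorem exists_monomial {a b i j : Fin n} (hab : a ≠ b) (hij : i ≠ j) :
    ∃ (h : SLn) (c : F), c ≠ 0 ∧ ∀ t, xs i j t = h * xs a b (c * t) * h⁻¹ := by
  obtain ⟨π, hπa, hπb⟩ : ∃ π : Equiv.Perm (Fin n), π a = i ∧ π b = j :=
    ⟨Equiv.swap (Equiv.swap a i b) j * Equiv.swap a i, by
      rw [Equiv.Perm.mul_apply, Equiv.swap_apply_left, Equiv.swap_apply_of_ne_of_ne ?_ hij]
      intro e
      exact hab ((Equiv.swap a i).injective (by rw [Equiv.swap_apply_left, ← e])), by simp⟩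
  have hsn : ((Equiv.Perm.sign π : ℤ) : F) * ((Equiv.Perm.sign π : ℤ) : F) = 1 := by
    rw [← Int.cast_mul, Int.units_coe_mul_self, Int.cast_one]
  let d : Fin n → F := Function.update 1 a ((Equiv.Perm.sign π : ℤ) : F)
  obtain ⟨h, hv⟩ : ∃ h : SLn, ∀ x : Fin n → F, h.1 *ᵥ x = fun k => d (π⁻¹ k) * x (π⁻¹ k) := by
    refine ⟨⟨π⁻¹.permMatrix F * Matrix.diagonal d, by
      rw [det_mul, det_permutation, det_diagonal, Equiv.Perm.sign_inv,
        Finset.prod_update_of_mem (Finset.mem_univ a)]
      simp [hsn]⟩, fun x => ?_⟩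
    show (π⁻¹.permMatrix F * Matrix.diagonal d) *ᵥ x = _
    rw [← mulVec_mulVec, Matrix.permMatrix_mulVec]
    funext k
    simp [mulVec_diagonal]
  have hda : d a ≠ 0 := by
    simp only [d, Function.update_self]
    exact fun e => by rw [e, mul_zero] at hsn; exact zero_ne_one hsn
  have hdb : d b = 1 := by simp [d, Function.update_of_ne hab.symm]
  refine ⟨h, (d a)⁻¹, inv_ne_zero hda, fun t => ?_⟩
  rw [eq_mul_inv_iff_mul_eq]
  refine ext_mulVec' fun x => ?_
  rw [Matrix.SpecialLinearGroup.coe_mul, Matrix.SpecialLinearGroup.coe_mul, ← mulVec_mulVec, ← mulVec_mulVec,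
    xs_mulVec hij, xs_mulVec hab, hv, hv]
  funext k
  simp only [Pi.add_apply, Pi.smul_apply, smul_eq_mul, ev, Pi.single_apply]
  rw [show π⁻¹ j = b by rw [Equiv.Perm.inv_def, Equiv.symm_apply_eq, hπb], hdb]
  by_cases hk : k = i
  · subst hk
    rw [show π⁻¹ k = a by rw [Equiv.Perm.inv_def, Equiv.symm_apply_eq, hπa]]
    simp only [if_true]
    field_simp
  · rw [if_neg hk, if_neg (fun e => hk (by rw [← hπa, ← e, Equiv.Perm.inv_def, Equiv.apply_symm_apply]))]
    ring

/-- **An automorphism maps a root group to a root group.** -/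
theorem exists_image [Fintype F] (hn : 2 ≤ n) (β : MulAut PSLn) {i j : Fin n} (hij : i ≠ j) :
    ∃ (v φ : Fin n → F) (ψ : F → F), φ ⬝ᵥ v = 0 ∧ v ≠ 0 ∧ φ ≠ 0 ∧
      ∀ t, β (xp i j t) = QuotientGroup.mk (tvS (ψ t • v) φ) := by
  obtain ⟨p, hp⟩ := CharP.exists F
  haveI : Fact p.Prime := ⟨CharP.char_is_prime F p⟩
  obtain ⟨g, hg⟩ := exists_conj_Ubar (p := p) β
  let a : Fin n := ⟨0, by omega⟩
  let b : Fin n := ⟨n - 1, by omega⟩
  have ha : ∀ k, a ≤ k := fun k => Nat.zero_le _
  have hb : ∀ k, k ≤ b := fun k => by show (k : ℕ) ≤ n - 1; have := k.2; omega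
  have hab : a < b := by show 0 < n - 1; omega
  have key : ∀ t : F, ∃ s : F, β (xp a b t) = g * xp a b s * g⁻¹ := by
    intro t
    have hmem : xp a b t ∈ Ubar n F := ⟨_, xs_mem_Usl hab t, rfl⟩
    obtain ⟨s, hs⟩ := exists_of_central hn ha hb (hg _ hmem) (fun z hz => by
      have hz' : ∃ x ∈ Ubar n F, β x = g * z * g⁻¹ := by
        have hbij : Function.Surjective (fun x : Ubar n F => (⟨g⁻¹ * β x.1 * g, hg _ x.2⟩ : Ubar n F)) :=
          Finite.surjective_of_injective fun x y e => Subtype.ext (β.injective (by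
            simpa using congrArg Subtype.val e))
        obtain ⟨x, hx⟩ := hbij ⟨z, hz⟩
        refine ⟨x.1, x.2, ?_⟩
        have hx' : g⁻¹ * β x.1 * g = z := congrArg Subtype.val hx
        rw [← hx']
        group
      obtain ⟨x, hx, hxe⟩ := hz'
      have e := congrArg β (comm_Ubar ha hb hab t hx)
      rw [map_mul, map_mul, hxe] at e
      calc g⁻¹ * β (xp a b t) * g * z = g⁻¹ * (β (xp a b t) * (g * z * g⁻¹)) * g := by group
        _ = g⁻¹ * ((g * z * g⁻¹) * β (xp a b t)) * g := by rw [e]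
        _ = z * (g⁻¹ * β (xp a b t) * g) := by group)
    exact ⟨s, by rw [← hs]; group⟩
  choose s hs using key
  obtain ⟨h, c, -, hh⟩ := exists_monomial (F := F) hab.ne hij
  obtain ⟨m, hm⟩ := QuotientGroup.mk_surjective (β (QuotientGroup.mk h) * g)
  have e0 : (ev b : Fin n → F) ⬝ᵥ ev a = 0 := ev_dot hab.ne'
  refine ⟨m.1 *ᵥ ev a, ev b ᵥ* (m⁻¹ : SLn).1, fun t => s (c * t), ?_, ?_, ?_, fun t => ?_⟩
  · rw [← dotProduct_mulVec, mulVec_mulVec, ← Matrix.SpecialLinearGroup.coe_mul, inv_mul_cancel,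
      Matrix.SpecialLinearGroup.coe_one, one_mulVec, e0]
  · intro e
    have := congrArg (fun z => (m⁻¹ : SLn).1 *ᵥ z) e
    simp only [mulVec_mulVec, ← Matrix.SpecialLinearGroup.coe_mul, inv_mul_cancel,
      Matrix.SpecialLinearGroup.coe_one, one_mulVec, mulVec_zero] at this
    exact (one_ne_zero (α := F)) (by simpa [ev] using congrFun this a)
  · intro e
    have := congrArg (fun z => z ᵥ* m.1) e
    simp only [vecMul_vecMul, ← Matrix.SpecialLinearGroup.coe_mul, inv_mul_cancel,
      Matrix.SpecialLinearGroup.coe_one, vecMul_one, zero_vecMul] at this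
    exact (one_ne_zero (α := F)) (by simpa [ev] using congrFun this b)
  · rw [← mulVec_smul, ← conj_tvS m (by rw [dotProduct_smul, e0, smul_zero]), QuotientGroup.mk_mul,
      QuotientGroup.mk_mul, QuotientGroup.mk_inv, hm, xp_eq, hh, QuotientGroup.mk_mul, QuotientGroup.mk_mul,
      map_mul, map_mul, QuotientGroup.mk_inv, map_inv, ← xp_eq, hs, show tvS (s (c * t) • ev a) (ev b) = xs a b (s (c * t)) from rfl, ← xp_eq]
    group

end Cfsg.Lib.Classical.PSLAut
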