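/-
Automorphisms of `PSL_n(F)` for `n ≥ 3`.
-/
import Mathlib
import Cfsg.Agent.Lib.Classical.PSLAut.RootGroups

set_option autoImplicit false

open scoped Classical

namespace Cfsg.Lib.Classical.PSLAut

open Matrix Fin.NatCast
open scoped MatrixGroups

variable {n : ℕ} {F : Type*} [Field F]

local notation "SLn" => Matrix.SpecialLinearGroup (Fin n) F
local notation "PSLn" => Matrix.ProjectiveSpecialLinearGroup (Fin n) F

/-- Projective transvection. -/
noncomputable def pp (v φ : Fin n → F) : PSLn := QuotientGroup.mk (tvS v φ)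

theorem xp_eq_pp (i j : Fin n) (t : F) : xp i j t = pp (t • ev i) (ev j) := rfl

theorem ev_self_dot (i : Fin n) : (ev i : Fin n → F) ⬝ᵥ ev i = 1 := by simp [ev]

theorem dot_xs {i j : Fin n} (h : i ≠ j) (t : F) : (ev j : Fin n → F) ⬝ᵥ (t • ev i) = 0 := by
  rw [dotProduct_smul, ev_dot h.symm, smul_zero]

theorem pp_commute_iff (hn : 3 ≤ n) {v w φ χ : Fin n → F} (h1 : φ ⬝ᵥ v = 0) (h2 : χ ⬝ᵥ w = 0)
    (hv : v ≠ 0) (hw : w ≠ 0) (hφ : φ ≠ 0) (hχ : χ ≠ 0) :
    Commute (pp v φ) (pp w χ) ↔ φ ⬝ᵥ w = 0 ∧ χ ⬝ᵥ v = 0 := by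
  constructor
  · intro hc
    obtain ⟨x, hx, hx1, hx2⟩ := exists_common_fixed hn φ χ
    have e : tvS v φ * tvS w χ = tvS w χ * tvS v φ := by
      refine eq_of_mk_eq hx ?_ ?_ hc
      · rw [Matrix.SpecialLinearGroup.coe_mul, ← mulVec_mulVec, tvS_mulVec h2, hx2, zero_smul, add_zero,
          tvS_mulVec h1, hx1, zero_smul, add_zero]
      · rw [Matrix.SpecialLinearGroup.coe_mul, ← mulVec_mulVec, tvS_mulVec h1, hx1, zero_smul, add_zero,
          tvS_mulVec h2, hx2, zero_smul, add_zero]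
    have key : ∀ y, (φ ⬝ᵥ w) • ((χ ⬝ᵥ y) • v) = (χ ⬝ᵥ v) • ((φ ⬝ᵥ y) • w) := by
      intro y
      have e1 := congrArg (fun m : SLn => m.1 *ᵥ y) e
      simp only [Matrix.SpecialLinearGroup.coe_mul, ← mulVec_mulVec, tvS_mulVec h1, tvS_mulVec h2,
        dotProduct_add, dotProduct_smul, smul_eq_mul, add_smul] at e1
      rw [smul_smul, smul_smul, mul_comm (φ ⬝ᵥ w), mul_comm (χ ⬝ᵥ v)]
      have e2 : (χ ⬝ᵥ y * (φ ⬝ᵥ w)) • v - (φ ⬝ᵥ y * (χ ⬝ᵥ v)) • w = 0 := by
        rw [← sub_eq_zero] at e1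
        rw [← e1]
        abel
      exact sub_eq_zero.1 e2
    have hzero : ∀ {φ χ v w : Fin n → F}, χ ⬝ᵥ w = 0 → v ≠ 0 → w ≠ 0 → χ ≠ 0 →
        (∀ y, (φ ⬝ᵥ w) • ((χ ⬝ᵥ y) • v) = (χ ⬝ᵥ v) • ((φ ⬝ᵥ y) • w)) → φ ⬝ᵥ w = 0 := by
      intro φ χ v w h2 hv hw hχ key
      by_contra hne
      have hw' := key w
      rw [h2, zero_smul, smul_zero] at hw'
      have hχv : χ ⬝ᵥ v = 0 := by
        rcases smul_eq_zero.1 hw'.symm with h | h
        · exact h
        · exact absurd ((smul_eq_zero.1 h).resolve_left hne) hw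
      apply hχ
      refine dotProduct_eq_zero_iff.1 fun y => ?_
      have := key y
      rw [hχv, zero_smul] at this
      exact ((smul_eq_zero.1 ((smul_eq_zero.1 this).resolve_left hne)).resolve_right hv)
    exact ⟨hzero h2 hv hw hχ key, hzero h1 hw hv hφ fun y => (key y).symm⟩
  · rintro ⟨e1, e2⟩
    refine congrArg QuotientGroup.mk (ext_mulVec' fun y => ?_)
    simp only [Matrix.SpecialLinearGroup.coe_mul, ← mulVec_mulVec, tvS_mulVec h1, tvS_mulVec h2,
      dotProduct_add, dotProduct_smul, smul_eq_mul, e1, e2, mul_zero, add_zero]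
    abel

theorem pp_comm {v w φ χ : Fin n → F} (h1 : φ ⬝ᵥ v = 0) (h2 : χ ⬝ᵥ w = 0) (h : χ ⬝ᵥ v = 0) :
    pp v φ * pp w χ * (pp v φ)⁻¹ * (pp w χ)⁻¹ = pp ((φ ⬝ᵥ w) • v) χ := by
  have h3 : φ ⬝ᵥ (-v) = 0 := by rw [dotProduct_neg, h1, neg_zero]
  have h4 : χ ⬝ᵥ (-w) = 0 := by rw [dotProduct_neg, h2, neg_zero]
  have h5 : χ ⬝ᵥ ((φ ⬝ᵥ w) • v) = 0 := by rw [dotProduct_smul, h, smul_zero]
  have e : tvS v φ * tvS w χ * (tvS v φ)⁻¹ * (tvS w χ)⁻¹ = tvS ((φ ⬝ᵥ w) • v) χ := by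
    refine ext_mulVec' fun y => ?_
    rw [tvS_inv h1, tvS_inv h2, tvS_mulVec h5]
    simp only [Matrix.SpecialLinearGroup.coe_mul, ← mulVec_mulVec, tvS_mulVec h1, tvS_mulVec h2,
      tvS_mulVec h3, tvS_mulVec h4, dotProduct_add, dotProduct_neg, dotProduct_smul, smul_eq_mul, h1, h2, h]
    module
  exact congrArg QuotientGroup.mk e

theorem pp_comm_commute (hn : 3 ≤ n) {v w φ χ : Fin n → F} (h1 : φ ⬝ᵥ v = 0) (h2 : χ ⬝ᵥ w = 0)
    (hv : v ≠ 0) (hw : w ≠ 0) (hφ : φ ≠ 0) (hχ : χ ≠ 0) :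
    Commute (pp v φ) (pp v φ * pp w χ * (pp v φ)⁻¹ * (pp w χ)⁻¹) ↔ φ ⬝ᵥ w = 0 ∨ χ ⬝ᵥ v = 0 := by
  constructor
  · intro hc
    have hc' : Commute (pp v φ) (pp w χ * (pp v φ)⁻¹ * (pp w χ)⁻¹) := by
      have := hc.eq
      refine mul_left_cancel (a := pp v φ) ?_
      calc pp v φ * (pp v φ * (pp w χ * (pp v φ)⁻¹ * (pp w χ)⁻¹))
          = pp v φ * (pp v φ * pp w χ * (pp v φ)⁻¹ * (pp w χ)⁻¹) := by group
        _ = pp v φ * pp w χ * (pp v φ)⁻¹ * (pp w χ)⁻¹ * pp v φ := this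
        _ = pp v φ * (pp w χ * (pp v φ)⁻¹ * (pp w χ)⁻¹ * pp v φ) := by group
    have h3 : φ ⬝ᵥ (-v) = 0 := by rw [dotProduct_neg, h1, neg_zero]
    have e : tvS w χ * (tvS v φ)⁻¹ * (tvS w χ)⁻¹ =
        tvS ((tvS w χ).1 *ᵥ (-v)) (φ ᵥ* ((tvS w χ)⁻¹ : SLn).1) := by
      rw [tvS_inv h1, conj_tvS _ h3]
    rw [show pp w χ * (pp v φ)⁻¹ * (pp w χ)⁻¹ = QuotientGroup.mk (tvS w χ * (tvS v φ)⁻¹ * (tvS w χ)⁻¹) from rfl,
      e] at hc'
    have hd : (φ ᵥ* ((tvS w χ)⁻¹ : SLn).1) ⬝ᵥ ((tvS w χ).1 *ᵥ (-v)) = 0 := by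
      rw [← dotProduct_mulVec, mulVec_mulVec, ← Matrix.SpecialLinearGroup.coe_mul, inv_mul_cancel,
        Matrix.SpecialLinearGroup.coe_one, one_mulVec, h3]
    have hw' : (tvS w χ).1 *ᵥ (-v) ≠ 0 := fun e0 => hv (by
      have := congrArg (fun z => ((tvS w χ)⁻¹ : SLn).1 *ᵥ z) e0
      simp only [mulVec_mulVec, ← Matrix.SpecialLinearGroup.coe_mul, inv_mul_cancel,
        Matrix.SpecialLinearGroup.coe_one, one_mulVec, mulVec_zero, neg_eq_zero] at this
      exact this)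
    have hχ' : φ ᵥ* ((tvS w χ)⁻¹ : SLn).1 ≠ 0 := fun e0 => hφ (by
      have := congrArg (fun z => z ᵥ* (tvS w χ).1) e0
      simp only [vecMul_vecMul, ← Matrix.SpecialLinearGroup.coe_mul, inv_mul_cancel,
        Matrix.SpecialLinearGroup.coe_one, vecMul_one, zero_vecMul] at this
      exact this)
    have := ((pp_commute_iff hn h1 hd hv hw' hφ hχ').1 hc').1
    rw [tvS_mulVec h2, dotProduct_add, dotProduct_neg, dotProduct_neg, h1, neg_zero, zero_add,
      dotProduct_smul, smul_eq_mul, neg_mul, neg_eq_zero] at this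
    exact (mul_eq_zero.1 this).symm
  · intro h
    by_cases h' : χ ⬝ᵥ v = 0
    · rw [pp_comm h1 h2 h']
      by_cases h0 : φ ⬝ᵥ w = 0
      · rw [h0, zero_smul, show pp (0 : Fin n → F) χ = 1 from congrArg QuotientGroup.mk
          (ext_mulVec' fun y => by rw [tvS_mulVec (by simp)]; simp)]
        exact Commute.one_right _
      · exact (pp_commute_iff hn h1 (by rw [dotProduct_smul, h', smul_zero]) hv (smul_ne_zero h0 hv) hφ hχ).2
          ⟨by rw [dotProduct_smul, h1, smul_zero], h'⟩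
    · have h0 := h.resolve_right h'
      rw [show pp v φ * pp w χ * (pp v φ)⁻¹ * (pp w χ)⁻¹ =
        (pp w χ * pp v φ * (pp w χ)⁻¹ * (pp v φ)⁻¹)⁻¹ by group, pp_comm h2 h1 h0]
      exact ((pp_commute_iff hn h1 (by rw [dotProduct_smul, h0, smul_zero]) hv (smul_ne_zero h' hw) hφ hφ).2
          ⟨by rw [dotProduct_smul, h0, smul_zero], h1⟩).inv_right

theorem xp_comm {i j k : Fin n} (hij : i ≠ j) (hjk : j ≠ k) (hik : i ≠ k) (a b : F) :
    xp i j a * xp j k b * (xp i j a)⁻¹ * (xp j k b)⁻¹ = xp i k (a * b) := by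
  rw [xp_eq_pp, xp_eq_pp, xp_eq_pp, pp_comm (dot_xs hij a) (dot_xs hjk b) (dot_xs hik a), dotProduct_smul,
    ev_self_dot, smul_eq_mul, mul_one, smul_smul, mul_comm]

theorem conjP_pp (g : GL (Fin n) F) {v φ : Fin n → F} (h : φ ⬝ᵥ v = 0) :
    conjP g (pp v φ) = pp ((g : Matrix (Fin n) (Fin n) F) *ᵥ v)
      (φ ᵥ* ((g⁻¹ : GL (Fin n) F) : Matrix (Fin n) (Fin n) F)) := by
  rw [pp, conjP_mk]
  refine congrArg QuotientGroup.mk (Subtype.ext ?_)
  rw [coe_conjSLHom, coe_tvS h, Cfsg.Lib.Classical.conj_tv, coe_tvS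
    (by rw [← dotProduct_mulVec, Cfsg.Lib.Classical.inv_mulVec_mulVec, h])]

theorem itP_pp {v φ : Fin n → F} (h : φ ⬝ᵥ v = 0) : itP (pp v φ) = pp (-φ) v := by
  rw [pp, itP_mk]
  refine congrArg QuotientGroup.mk (Subtype.ext ?_)
  rw [coe_itSL, tvS_inv h, coe_tvS (by simp [h]), coe_tvS (by simp [dotProduct_comm v, h]),
    Cfsg.Lib.Classical.tv, Cfsg.Lib.Classical.tv, transpose_add, transpose_one, transpose_vecMulVec]
  congr 1
  ext a b
  simp [vecMulVec_apply]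

theorem frobP_xp (σ : F ≃+* F) {i j : Fin n} (h : i ≠ j) (t : F) :
    frobP σ (xp i j t) = xp i j (σ t) := by
  rw [xp_eq, frobP_mk]
  refine congrArg QuotientGroup.mk (Subtype.ext (Matrix.ext fun k l => ?_))
  rw [coe_frobSL, Matrix.map_apply, xs_apply h, xs_apply h]
  split_ifs <;> simp

theorem ne_add {m : ℕ} [NeZero m] (i : Fin m) {k : ℕ} (h0 : 0 < k) (hk : k < m) :
    i + (k : Fin m) ≠ i := fun e => by
  have : (k : Fin m) = 0 := add_left_cancel (e.trans (add_zero i).symm)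
  rw [Fin.natCast_eq_zero] at this
  exact Nat.not_dvd_of_pos_of_lt h0 hk this

theorem add_one_ne {m : ℕ} [NeZero m] (hm : 2 ≤ m) (i : Fin m) : i + 1 ≠ i := by
  simpa using ne_add i (k := 1) one_pos (by omega)

theorem add_two_ne {m : ℕ} [NeZero m] (hm : 3 ≤ m) (i : Fin m) : i + 1 + 1 ≠ i := by
  rw [add_assoc]
  simpa [one_add_one_eq_two] using ne_add i (k := 2) two_pos (by omega)

/-- Endomorphisms agreeing on the cyclic chain of root groups agree everywhere. -/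
theorem eq_of_chain [NeZero n] (hn : 2 ≤ n) {β γ : MulAut PSLn}
    (h : ∀ (i : Fin n) (t : F), β (xp i (i + 1) t) = γ (xp i (i + 1) t)) : β = γ := by
  have hall : ∀ k : ℕ, ∀ i j : Fin n, i ≠ j → j = i + ((k + 1 : ℕ) : Fin n) → k + 1 < n →
      ∀ t, β (xp i j t) = γ (xp i j t) := by
    intro k
    induction k with
    | zero => intro i j _ e _ t; subst e; simpa using h i t
    | succ k ih =>
      intro i j hij e hk t
      have h1 : i ≠ i + ((k + 1 : ℕ) : Fin n) := (ne_add i (Nat.succ_pos k) (by omega)).symm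
      have e2 : j = i + ((k + 1 : ℕ) : Fin n) + 1 := by rw [e]; push_cast; rw [← add_assoc]
      have h2 : i + ((k + 1 : ℕ) : Fin n) ≠ j := by rw [e2]; exact (add_one_ne hn _).symm
      have hc := xp_comm h1 h2 hij t (1 : F)
      rw [mul_one] at hc
      rw [← hc, map_mul, map_mul, map_mul, map_inv, map_inv, map_mul, map_mul, map_mul, map_inv, map_inv,
        ih i _ h1 rfl (by omega) t]
      rw [show β (xp (i + ((k + 1 : ℕ) : Fin n)) j 1) = γ (xp (i + ((k + 1 : ℕ) : Fin n)) j 1) by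
        rw [e2]; exact h _ 1]
  have hgen : ∀ i j : Fin n, i ≠ j → ∀ t, β (xp i j t) = γ (xp i j t) := by
    intro i j hij t
    have hd : ((j - i : Fin n) : ℕ) ≠ 0 := fun e => hij (by
      have : j - i = 0 := Fin.ext (by simpa using e)
      exact (sub_eq_zero.1 this).symm)
    refine hall (((j - i : Fin n) : ℕ) - 1) i j hij ?_ (by have := (j - i).2; omega) t
    rw [Nat.sub_add_cancel (Nat.one_le_iff_ne_zero.2 hd), Fin.cast_val_eq_self, add_sub_cancel]
  have hK := Cfsg.Lib.Classical.SLGroup.eq_top_of_transvection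
    ((MonoidHom.eqLocus β.toMonoidHom γ.toMonoidHom).comap (QuotientGroup.mk' (Subgroup.center SLn)))
    (fun i j hij c => by
      rw [← xs_eq_transvection hij]
      exact hgen i j hij c)
  refine MulEquiv.ext fun x => ?_
  induction x using QuotientGroup.induction_on with
  | H s => exact (hK.symm ▸ Subgroup.mem_top s : s ∈ _)

/-- The image data of the chain. -/
structure ChainData [NeZero n] (β : MulAut PSLn) where
  v : Fin n → Fin n → F
  φ : Fin n → Fin n → F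
  ψ : Fin n → F → F
  dot : ∀ i, φ i ⬝ᵥ v i = 0
  vne : ∀ i, v i ≠ 0
  φne : ∀ i, φ i ≠ 0
  eq : ∀ i t, β (xp i (i + 1) t) = pp (ψ i t • v i) (φ i)

variable [Fintype F]

theorem nonempty_chainData [NeZero n] (hn : 2 ≤ n) (β : MulAut PSLn) : Nonempty (ChainData β) := by
  choose v φ ψ h1 h2 h3 h4 using fun i : Fin n => exists_image hn β (i := i) (j := i + 1) (add_one_ne hn i).symm
  exact ⟨⟨v, φ, ψ, h1, h2, h3, h4⟩⟩

variable [NeZero n] {β : MulAut (Matrix.ProjectiveSpecialLinearGroup (Fin n) F)}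

omit [Fintype F] in
theorem ChainData.ψ_ne (D : ChainData β) (hn : 2 ≤ n) (i : Fin n) {t : F} (ht : t ≠ 0) : D.ψ i t ≠ 0 := by
  intro e
  have h := D.eq i t
  rw [e, zero_smul, show pp (0 : Fin n → F) (D.φ i) = 1 from congrArg QuotientGroup.mk
    (ext_mulVec' fun y => by rw [tvS_mulVec (by simp)]; simp), ← map_one β] at h
  have h2 : xp i (i + 1) t = xp i (i + 1) (0 : F) := by
    rw [β.injective h, xp_eq, xs_zero (add_one_ne hn i).symm]; rfl
  exact ht (xp_injective (add_one_ne hn i).symm h2)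

omit [Fintype F] in
theorem ChainData.far (D : ChainData β) (hn : 3 ≤ n) {i j : Fin n} (h1 : i + 1 ≠ j) (h2 : j + 1 ≠ i) :
    D.φ i ⬝ᵥ D.v j = 0 := by
  have hn2 : 2 ≤ n := by omega
  have hc : Commute (xp i (i + 1) (1 : F)) (xp j (j + 1) (1 : F)) := by
    rw [xp_eq_pp, xp_eq_pp]
    refine (pp_commute_iff hn (dot_xs (add_one_ne hn2 i).symm 1) (dot_xs (add_one_ne hn2 j).symm 1)
      (by simp [ev]) (by simp [ev]) (by simp [ev]) (by simp [ev])).2 ⟨?_, ?_⟩
    · exact dot_xs h1.symm 1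
    · exact dot_xs h2.symm 1
  have hc' := hc.map β.toMonoidHom
  simp only [MulEquiv.toMonoidHom_eq_coe, MonoidHom.coe_coe, D.eq] at hc'
  have := ((pp_commute_iff hn (by rw [dotProduct_smul, D.dot, smul_zero]) (by rw [dotProduct_smul, D.dot, smul_zero])
    (smul_ne_zero (D.ψ_ne hn2 i one_ne_zero) (D.vne i)) (smul_ne_zero (D.ψ_ne hn2 j one_ne_zero) (D.vne j))
    (D.φne i) (D.φne j)).1 hc').1
  rw [dotProduct_smul] at this
  exact (smul_eq_zero.1 this).resolve_left (D.ψ_ne hn2 j one_ne_zero)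

omit [Fintype F] in
theorem ChainData.adj (D : ChainData β) (hn : 3 ≤ n) (i : Fin n) :
    (D.φ i ⬝ᵥ D.v (i + 1) = 0 ∧ D.φ (i + 1) ⬝ᵥ D.v i ≠ 0) ∨
    (D.φ i ⬝ᵥ D.v (i + 1) ≠ 0 ∧ D.φ (i + 1) ⬝ᵥ D.v i = 0) := by
  have hn2 : 2 ≤ n := by omega
  have hd : ∀ k, D.φ k ⬝ᵥ (D.ψ k 1 • D.v k) = 0 := fun k => by rw [dotProduct_smul, D.dot, smul_zero]
  have hv : ∀ k, D.ψ k 1 • D.v k ≠ 0 := fun k => smul_ne_zero (D.ψ_ne hn2 k one_ne_zero) (D.vne k)
  have h3 : i ≠ i + 1 + 1 := (add_two_ne hn i).symm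
  have hnc : ¬ Commute (xp i (i + 1) (1 : F)) (xp (i + 1) (i + 1 + 1) (1 : F)) := by
    rw [xp_eq_pp, xp_eq_pp, pp_commute_iff hn (dot_xs (add_one_ne hn2 i).symm 1)
      (dot_xs (add_one_ne hn2 _).symm 1) (by simp [ev]) (by simp [ev]) (by simp [ev]) (by simp [ev])]
    rintro ⟨h, -⟩
    rw [dotProduct_smul, ev_self_dot, smul_eq_mul, mul_one] at h
    exact one_ne_zero h
  have hcc : Commute (xp i (i + 1) (1 : F))
      (xp i (i + 1) 1 * xp (i + 1) (i + 1 + 1) 1 * (xp i (i + 1) 1)⁻¹ * (xp (i + 1) (i + 1 + 1) 1)⁻¹) := by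
    rw [xp_eq_pp, xp_eq_pp, pp_comm_commute hn (dot_xs (add_one_ne hn2 i).symm 1)
      (dot_xs (add_one_ne hn2 _).symm 1) (by simp [ev]) (by simp [ev]) (by simp [ev]) (by simp [ev])]
    exact Or.inr (dot_xs h3 1)
  have hcc' := hcc.map β.toMonoidHom
  simp only [MulEquiv.toMonoidHom_eq_coe, MonoidHom.coe_coe, map_mul, map_inv, D.eq] at hcc'
  have h := (pp_comm_commute hn (hd i) (hd (i + 1)) (hv i) (hv (i + 1)) (D.φne i) (D.φne (i + 1))).1 hcc'
  simp only [dotProduct_smul, smul_eq_zero, D.ψ_ne hn2 _ one_ne_zero, false_or] at h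
  have hnot : ¬ (D.φ i ⬝ᵥ D.v (i + 1) = 0 ∧ D.φ (i + 1) ⬝ᵥ D.v i = 0) := fun hh => hnc (by
    have h' := (pp_commute_iff hn (hd i) (hd (i + 1)) (hv i) (hv (i + 1)) (D.φne i) (D.φne (i + 1))).2
      ⟨by rw [dotProduct_smul, hh.1, smul_zero], by rw [dotProduct_smul, hh.2, smul_zero]⟩
    rw [← D.eq, ← D.eq] at h'
    have := h'.map β.symm.toMonoidHom
    simpa using this)
  by_cases h' : D.φ i ⬝ᵥ D.v (i + 1) = 0
  · exact Or.inl ⟨h', fun h'' => hnot ⟨h', h''⟩⟩
  · exact Or.inr ⟨h', h.resolve_left h'⟩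

omit [Fintype F] in
theorem ChainData.orient (D : ChainData β) (hn : 3 ≤ n) (i : Fin n)
    (h : D.φ i ⬝ᵥ D.v (i + 1) ≠ 0) : D.φ (i + 1) ⬝ᵥ D.v (i + 1 + 1) ≠ 0 := by
  have hn2 : 2 ≤ n := by omega
  intro hb
  have hi : D.φ (i + 1) ⬝ᵥ D.v i = 0 := ((D.adj hn i).resolve_left fun hh => h hh.1).2
  have h12 : i + 1 ≠ i + 1 + 1 := (add_one_ne hn2 _).symm
  have hd : ∀ k, D.φ k ⬝ᵥ (D.ψ k 1 • D.v k) = 0 := fun k => by rw [dotProduct_smul, D.dot, smul_zero]
  have hv : ∀ k, D.ψ k 1 • D.v k ≠ 0 := fun k => smul_ne_zero (D.ψ_ne hn2 k one_ne_zero) (D.vne k)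
  -- the image of the composed root group
  have himg : β (xp i (i + 1 + 1) 1) =
      pp ((D.φ i ⬝ᵥ (D.ψ (i + 1) 1 • D.v (i + 1))) • (D.ψ i 1 • D.v i)) (D.φ (i + 1)) := by
    have e := congrArg β (xp_comm (add_one_ne hn2 i).symm h12 (add_two_ne hn i).symm (1 : F) 1)
    simp only [map_mul, map_inv, D.eq, mul_one] at e
    rw [← e, pp_comm (hd i) (hd (i + 1)) (by rw [dotProduct_smul, hi, smul_zero])]
  set w : Fin n → F := (D.φ i ⬝ᵥ (D.ψ (i + 1) 1 • D.v (i + 1))) • (D.ψ i 1 • D.v i)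
  have hw0 : w ≠ 0 := smul_ne_zero (by
    rw [dotProduct_smul]; exact mul_ne_zero (D.ψ_ne hn2 _ one_ne_zero) h) (hv i)
  have hwd : D.φ (i + 1) ⬝ᵥ w = 0 := by
    simp only [w, dotProduct_smul, hi, smul_zero]
  set k : Fin n := i + 1 + 1
  have hk : i ≠ k := (add_two_ne hn i).symm
  by_cases h4 : k + 1 = i
  · have hnc : ¬ Commute (xp i k (1 : F))
        (xp i k 1 * xp k (k + 1) 1 * (xp i k 1)⁻¹ * (xp k (k + 1) 1)⁻¹) := by
      rw [xp_eq_pp, xp_eq_pp, pp_comm_commute hn (dot_xs hk 1) (dot_xs (add_one_ne hn2 k).symm 1)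
        (by simp [ev]) (by simp [ev]) (by simp [ev]) (by simp [ev]), h4]
      simp only [dotProduct_smul, ev_self_dot, smul_eq_mul, mul_one, one_ne_zero, or_self, not_false_iff]
    apply hnc
    have h' : Commute (pp w (D.φ (i + 1))) (pp w (D.φ (i + 1)) * pp (D.ψ k 1 • D.v k) (D.φ k) *
        (pp w (D.φ (i + 1)))⁻¹ * (pp (D.ψ k 1 • D.v k) (D.φ k))⁻¹) :=
      (pp_comm_commute hn hwd (hd k) hw0 (hv k) (D.φne _) (D.φne k)).2
        (Or.inl (by rw [dotProduct_smul, hb, smul_zero]))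
    rw [← himg, ← D.eq, ← map_inv, ← map_inv, ← map_mul, ← map_mul, ← map_mul] at h'
    have := h'.map β.symm.toMonoidHom
    simpa using this
  · have hfar : D.φ k ⬝ᵥ D.v i = 0 := D.far hn h4 h12
    have h' : Commute (pp w (D.φ (i + 1))) (pp (D.ψ k 1 • D.v k) (D.φ k)) :=
      (pp_commute_iff hn hwd (hd k) hw0 (hv k) (D.φne _) (D.φne k)).2
        ⟨by rw [dotProduct_smul, hb, smul_zero], by simp only [w, dotProduct_smul, hfar, smul_zero]⟩
    rw [← himg, ← D.eq] at h'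
    have h'' := h'.map β.symm.toMonoidHom
    have hc : Commute (xp i k (1 : F)) (xp k (k + 1) (1 : F)) := by simpa using h''
    rw [xp_eq_pp, xp_eq_pp, pp_commute_iff hn (dot_xs hk 1) (dot_xs (add_one_ne hn2 k).symm 1)
      (by simp [ev]) (by simp [ev]) (by simp [ev]) (by simp [ev]), dotProduct_smul, ev_self_dot,
      smul_eq_mul, mul_one] at hc
    exact one_ne_zero hc.1

/-- After composing with inverse transpose and a conjugation, the chain of root groups is fixed. -/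
theorem exists_chain_fixed (hn : 3 ≤ n) (β : MulAut PSLn) :
    ∃ (g : GL (Fin n) F) (γ : MulAut PSLn), (γ = 1 ∨ γ = itP) ∧ ∃ ψ : Fin n → F → F,
      ∀ i t, (conjP g * (γ * β)) (xp i (i + 1) t) = xp i (i + 1) (ψ i t) := by
  have hn2 : 2 ≤ n := by omega
  obtain ⟨D⟩ := nonempty_chainData hn2 β
  obtain ⟨γ, hγ, D', hD'⟩ : ∃ γ : MulAut PSLn, (γ = 1 ∨ γ = itP) ∧ ∃ D' : ChainData (γ * β),
      ∀ i, D'.φ i ⬝ᵥ D'.v (i + 1) ≠ 0 := by
    by_cases h0 : ∃ i, D.φ i ⬝ᵥ D.v (i + 1) ≠ 0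
    · obtain ⟨i0, hi0⟩ := h0
      have hk : ∀ k : ℕ, D.φ (i0 + (k : Fin n)) ⬝ᵥ D.v (i0 + (k : Fin n) + 1) ≠ 0 := by
        intro k
        induction k with
        | zero => simpa using hi0
        | succ k ih =>
          have := D.orient hn _ ih
          rwa [Nat.cast_succ, ← add_assoc]
      refine ⟨1, Or.inl rfl, ⟨D.v, D.φ, D.ψ, D.dot, D.vne, D.φne, fun i t => by
        rw [one_mul]; exact D.eq i t⟩, fun i => ?_⟩
      have := hk ((i - i0 : Fin n) : ℕ)
      rwa [Fin.cast_val_eq_self, add_sub_cancel] at this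
    · push Not at h0
      refine ⟨itP, Or.inr rfl, ⟨D.φ, D.v, fun i t => -D.ψ i t, fun i => ?_, D.φne, D.vne, fun i t => ?_⟩,
        fun i => ?_⟩
      · rw [dotProduct_comm]; exact D.dot i
      · have hd : D.φ i ⬝ᵥ D.v i = 0 := D.dot i
        have hd' : D.v i ⬝ᵥ D.φ i = 0 := by rw [dotProduct_comm, hd]
        rw [MulAut.mul_apply, D.eq, itP_pp (by rw [dotProduct_smul, hd, smul_zero])]
        refine congrArg QuotientGroup.mk (ext_mulVec' fun y => ?_)
        rw [tvS_mulVec (by rw [dotProduct_neg, smul_dotProduct, hd', smul_zero, neg_zero]),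
          tvS_mulVec (by rw [dotProduct_smul, hd', smul_zero]), smul_dotProduct, smul_eq_mul]
        module
      · show D.v i ⬝ᵥ D.φ (i + 1) ≠ 0
        rw [dotProduct_comm]
        exact ((D.adj hn i).resolve_right fun hh => hh.1 (h0 i)).2
  have hrev : ∀ i, D'.φ (i + 1) ⬝ᵥ D'.v i = 0 := fun i =>
    ((D'.adj hn i).resolve_left fun hh => hD' i hh.1).2
  have hdual : ∀ i j, j ≠ i + 1 → D'.φ i ⬝ᵥ D'.v j = 0 := by
    intro i j hj
    by_cases h1 : i = j + 1
    · subst h1; exact hrev j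
    exact D'.far hn (fun e => hj e.symm) (fun e => h1 e.symm)
  let M : Matrix (Fin n) (Fin n) F := Matrix.of fun k i => D'.v i k
  have hMe : ∀ i, M *ᵥ ev i = D'.v i := fun i => by
    funext k; simp [M, ev]
  have hMdet : M.det ≠ 0 := by
    intro e
    obtain ⟨c, hc0, hc⟩ := Matrix.exists_mulVec_eq_zero_iff.2 e
    apply hc0
    funext j
    have h1 : M *ᵥ c = ∑ k, c k • D'.v k := by
      funext l; simp [M, mulVec, dotProduct, Finset.sum_apply, mul_comm]
    have h2 : D'.φ (j - 1) ⬝ᵥ (M *ᵥ c) = 0 := by rw [hc, dotProduct_zero]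
    rw [h1, dotProduct_sum, Finset.sum_eq_single j (fun k _ hk => by
      rw [dotProduct_smul, hdual _ k (by rw [sub_add_cancel]; exact hk), smul_zero])
      (fun h => absurd (Finset.mem_univ j) h), dotProduct_smul] at h2
    have h3 := hD' (j - 1)
    rw [sub_add_cancel] at h3
    exact (smul_eq_zero.1 h2).resolve_right h3
  let G : GL (Fin n) F := Matrix.GeneralLinearGroup.mkOfDetNeZero M hMdet
  refine ⟨G⁻¹, γ, hγ, fun i t => (D'.φ i ⬝ᵥ D'.v (i + 1)) * D'.ψ i t, fun i t => ?_⟩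
  have hf : D'.φ i ᵥ* (G : Matrix (Fin n) (Fin n) F) = (D'.φ i ⬝ᵥ D'.v (i + 1)) • ev (i + 1) := by
    funext l
    show D'.φ i ⬝ᵥ (fun k => M k l) = _
    rw [show (fun k => M k l) = D'.v l from rfl]
    by_cases hl : l = i + 1
    · subst hl; simp [ev]
    · simp [ev, hdual i l hl, hl]
  have hv : ((G⁻¹ : GL (Fin n) F) : Matrix (Fin n) (Fin n) F) *ᵥ D'.v i = ev i := by
    rw [← hMe i]
    exact Cfsg.Lib.Classical.inv_mulVec_mulVec G (ev i)
  rw [MulAut.mul_apply, D'.eq, conjP_pp _ (by rw [dotProduct_smul, D'.dot, smul_zero]), inv_inv, mulVec_smul,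
    hv, hf, xp_eq_pp, mul_smul]
  refine congrArg QuotientGroup.mk (tvS_smul ?_ _).symm
  exact dot_xs (add_one_ne hn2 i).symm _

/-- Diagonal normalisation. -/
theorem exists_normalized (hn : 3 ≤ n) {β : MulAut PSLn} {ψ : Fin n → F → F}
    (h : ∀ i t, β (xp i (i + 1) t) = xp i (i + 1) (ψ i t)) :
    ∃ (g : GL (Fin n) F) (ψ' : Fin n → F → F),
      (∀ i t, (conjP g * β) (xp i (i + 1) t) = xp i (i + 1) (ψ' i t)) ∧
      ∀ i : Fin n, (i : ℕ) + 1 < n → ψ' i 1 = 1 := by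
  have hn2 : 2 ≤ n := by omega
  have hne : ∀ i, ψ i 1 ≠ 0 := fun i e => by
    have h1 := h i 1
    rw [e, show xp i (i + 1) (0 : F) = 1 by rw [xp_eq, xs_zero (add_one_ne hn2 i).symm]; rfl, ← map_one β] at h1
    have h2 : xp i (i + 1) (1 : F) = xp i (i + 1) 0 := by
      rw [β.injective h1, xp_eq, xs_zero (add_one_ne hn2 i).symm]; rfl
    exact one_ne_zero (xp_injective (add_one_ne hn2 i).symm h2)
  let a : ℕ → F := fun k => if hk : k < n then ψ ⟨k, hk⟩ 1 else 1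
  let d : Fin n → F := fun i => ∏ k ∈ Finset.range (i : ℕ), a k
  have hd : ∀ i, d i ≠ 0 := fun i => Finset.prod_ne_zero_iff.2 fun k _ => by
    simp only [a]; split_ifs with hk
    · exact hne _
    · exact one_ne_zero
  let G : GL (Fin n) F := Matrix.GeneralLinearGroup.mkOfDetNeZero (Matrix.diagonal d)
    (by rw [det_diagonal]; exact Finset.prod_ne_zero_iff.2 fun i _ => hd i)
  refine ⟨G, fun i t => d i * ψ i t / d (i + 1), fun i t => ?_, fun i hi => ?_⟩
  · rw [MulAut.mul_apply, h, xp_eq_pp, conjP_pp _ (dot_xs (add_one_ne hn2 i).symm _), xp_eq_pp]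
    have h1 : (G : Matrix (Fin n) (Fin n) F) *ᵥ (ψ i t • ev i) = (d i * ψ i t) • ev i := by
      funext k
      show (Matrix.diagonal d *ᵥ _) k = _
      by_cases hk : k = i <;> simp [mulVec_diagonal, ev, hk]
    have h2 : (ev (i + 1) : Fin n → F) ᵥ* ((G⁻¹ : GL (Fin n) F) : Matrix (Fin n) (Fin n) F) =
        (d (i + 1))⁻¹ • ev (i + 1) := by
      have h3 : ((d (i + 1))⁻¹ • ev (i + 1) : Fin n → F) ᵥ* (G : Matrix (Fin n) (Fin n) F) = ev (i + 1) := by
        funext k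
        show (_ ᵥ* Matrix.diagonal d) k = _
        by_cases hk : k = i + 1 <;> simp [vecMul_diagonal, ev, hk, hd (i + 1)]
      conv_lhs => rw [← h3, vecMul_vecMul, Units.mul_inv, vecMul_one]
    rw [h1, h2]
    refine congrArg QuotientGroup.mk ?_
    rw [← tvS_smul (dot_xs (add_one_ne hn2 i).symm _), smul_smul]
    congr 2
    field_simp
  · have hval : ((i + 1 : Fin n) : ℕ) = (i : ℕ) + 1 := Fin.val_add_one_of_lt' hi
    show d i * ψ i 1 / d (i + 1) = 1
    have hstep : d (i + 1) = d i * ψ i 1 := by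
      simp only [d, hval, Finset.prod_range_succ, a, dif_pos i.2]
    rw [hstep, div_self (mul_ne_zero (hd i) (hne i))]

/-- A normalised automorphism is a field automorphism. -/
theorem exists_frob (hn : 3 ≤ n) {β : MulAut PSLn} {ψ : Fin n → F → F}
    (h : ∀ i t, β (xp i (i + 1) t) = xp i (i + 1) (ψ i t))
    (h1 : ∀ i : Fin n, (i : ℕ) + 1 < n → ψ i 1 = 1) : ∃ σ : F ≃+* F, β = frobP σ := by
  have hn2 : 2 ≤ n := by omega
  have hadd : ∀ i a b, ψ i (a + b) = ψ i a + ψ i b := by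
    intro i a b
    refine xp_injective (add_one_ne hn2 i).symm ?_
    rw [← h, xp_eq, xs_add (add_one_ne hn2 i).symm, QuotientGroup.mk_mul, map_mul, ← xp_eq, ← xp_eq, h, h,
      xp_eq, xp_eq, ← QuotientGroup.mk_mul, ← xs_add (add_one_ne hn2 i).symm]
    rfl
  have hinj : ∀ i, Function.Injective (ψ i) := fun i a b e =>
    xp_injective (add_one_ne hn2 i).symm (β.injective (by rw [h, h, e]))
  have hrel : ∀ i a b, ψ i (a * b) * ψ (i + 1) 1 = ψ i a * ψ (i + 1) b := by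
    intro i a b
    have h12 : i ≠ i + 1 + 1 := (add_two_ne hn i).symm
    refine xp_injective h12 ?_
    rw [← xp_comm (add_one_ne hn2 i).symm (add_one_ne hn2 _).symm h12,
      ← xp_comm (add_one_ne hn2 i).symm (add_one_ne hn2 _).symm h12 (ψ i a), ← h, ← h, ← h, ← h,
      ← map_inv, ← map_inv, ← map_inv, ← map_inv, ← map_mul, ← map_mul, ← map_mul, ← map_mul, ← map_mul,
      ← map_mul, xp_comm (add_one_ne hn2 i).symm (add_one_ne hn2 _).symm h12,
      xp_comm (add_one_ne hn2 i).symm (add_one_ne hn2 _).symm h12, mul_one]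
  have hcast : ∀ k : ℕ, k < n → ((k : Fin n) : ℕ) = k := fun k hk => Fin.val_cast_of_lt hk
  have hsame : ∀ k : ℕ, k + 1 < n → ∀ b, ψ (k : Fin n) b = ψ 0 b := by
    intro k
    induction k with
    | zero => intro _ b; simp
    | succ k ih =>
      intro hk b
      have h2 := hrel (k : Fin n) 1 b
      rw [one_mul, ← Nat.cast_succ, h1 _ (by rw [hcast _ (by omega)]; omega),
        h1 _ (by rw [hcast _ (by omega)]; omega), mul_one, one_mul] at h2
      rw [← h2]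
      exact ih (by omega) b
  have hmul : ∀ a b, ψ 0 (a * b) = ψ 0 a * ψ 0 b := by
    intro a b
    have h2 := hrel 0 a b
    rw [zero_add, h1 (1 : Fin n) (by rw [← Nat.cast_one, hcast 1 (by omega)]; omega), mul_one] at h2
    rw [h2]
    congr 1
    have := hsame 1 (by omega) b
    rwa [Nat.cast_one] at this
  obtain ⟨m, rfl⟩ : ∃ m, n = m + 2 := ⟨n - 2, by omega⟩
  set L : Fin (m + 2) := ((m + 1 : ℕ) : Fin (m + 2))
  have hL1 : L + 1 = 0 := by
    show ((m + 1 : ℕ) : Fin (m + 2)) + 1 = 0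
    rw [← Nat.cast_succ]; exact Fin.natCast_self _
  have hlast : ∀ b, ψ L b = ψ L 1 * ψ 0 b := by
    intro b
    have h2 := hrel (m : Fin (m + 2)) 1 b
    rw [one_mul, ← Nat.cast_add_one, h1 ((m : ℕ) : Fin (m + 2)) (by rw [hcast _ (by omega)]; omega), one_mul,
      hsame m (by omega)] at h2
    show ψ ((m + 1 : ℕ) : Fin (m + 2)) b = ψ ((m + 1 : ℕ) : Fin (m + 2)) 1 * ψ 0 b
    rw [← h2, mul_comm]
  have hpre : ∀ k : ℕ, 1 ≤ k → k < m + 2 → ∀ t, β (xp (0 : Fin (m + 2)) (k : Fin (m + 2)) t) =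
      xp 0 (k : Fin (m + 2)) (ψ 0 t) := by
    intro k
    induction k with
    | zero => intro h0; omega
    | succ k ih =>
      intro _ hk t
      rcases Nat.eq_zero_or_pos k with rfl | hk0
      · have := h 0 t
        simpa using this
      · have e01 : (0 : Fin (m + 2)) ≠ (k : Fin (m + 2)) := by
          simpa using (ne_add (0 : Fin (m + 2)) hk0 (by omega)).symm
        have e02 : (0 : Fin (m + 2)) ≠ (k : Fin (m + 2)) + 1 := by
          simpa using (ne_add (0 : Fin (m + 2)) (Nat.succ_pos k) hk).symm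
        have e12 := (add_one_ne hn2 (k : Fin (m + 2))).symm
        rw [Nat.cast_succ, ← mul_one t, ← xp_comm e01 e12 e02, map_mul, map_mul, map_mul, map_inv, map_inv,
          ih hk0 (by omega), h, h1 _ (by rw [hcast _ (by omega)]; omega), xp_comm e01 e12 e02, mul_one, mul_one]
  have hψ01 : ψ 0 1 = 1 := h1 0 (by simp)
  have e0L : (0 : Fin (m + 2)) ≠ L := by
    simpa [L] using (ne_add (0 : Fin (m + 2)) (k := m + 1) (by omega) (by omega)).symm
  have e01 : (0 : Fin (m + 2)) ≠ 1 := by simpa using (add_one_ne hn2 (0 : Fin (m + 2))).symm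
  have e1L : (1 : Fin (m + 2)) ≠ L := by
    intro e
    have := congrArg Fin.val e
    rw [show (L : Fin (m + 2)).val = m + 1 from hcast _ (by omega), ← Nat.cast_one, hcast 1 (by omega)] at this
    omega
  have hc : ψ L 1 = 1 := by
    have hxy : ∀ b : F, (xs (0 : Fin (m + 2)) L 1 * xs L 0 b * xs 0 L 1).1 *ᵥ ev 0 =
        ((1 + b) • ev 0 + b • ev L : Fin (m + 2) → F) := by
      intro b
      simp only [Matrix.SpecialLinearGroup.coe_mul, ← mulVec_mulVec, xs_mulVec e0L, xs_mulVec e0L.symm]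
      funext k
      simp [ev, Pi.single_apply, e0L, e0L.symm]
      split_ifs <;> simp_all <;> ring
    have hyx : ∀ b : F, (xs L (0 : Fin (m + 2)) b * xs 0 L 1 * xs L 0 b).1 *ᵥ ev 0 =
        ((1 + b) • ev 0 + (b + b * (1 + b)) • ev L : Fin (m + 2) → F) := by
      intro b
      simp only [Matrix.SpecialLinearGroup.coe_mul, ← mulVec_mulVec, xs_mulVec e0L, xs_mulVec e0L.symm]
      funext k
      simp [ev, Pi.single_apply, e0L, e0L.symm]
      split_ifs <;> simp_all <;> ring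
    have hbraid : xs (0 : Fin (m + 2)) L (1 : F) * xs L 0 (-1) * xs 0 L 1 =
        xs L 0 (-1) * xs 0 L 1 * xs L 0 (-1) := by
      refine ext_mulVec' fun x => ?_
      simp only [Matrix.SpecialLinearGroup.coe_mul, ← mulVec_mulVec, xs_mulVec e0L, xs_mulVec e0L.symm]
      funext k
      simp [ev, Pi.single_apply, e0L, e0L.symm]
      split_ifs <;> simp_all
    have e := congrArg β (congrArg (QuotientGroup.mk : _ → Matrix.ProjectiveSpecialLinearGroup (Fin (m + 2)) F) hbraid)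
    have hb := h L (-1)
    rw [hL1] at hb
    have hx : β (xp 0 L 1) = xp 0 L 1 := (hpre (m + 1) (by omega) (by omega) 1).trans (by rw [hψ01])
    simp only [QuotientGroup.mk_mul, map_mul, ← xp_eq, hx] at e
    rw [hb, xp_eq, xp_eq, ← QuotientGroup.mk_mul, ← QuotientGroup.mk_mul, ← QuotientGroup.mk_mul,
      ← QuotientGroup.mk_mul] at e
    have hfix : ∀ (i j : Fin (m + 2)) (t : F), i ≠ j → j ≠ 1 → (xs i j t).1 *ᵥ ev 1 = (ev 1 : Fin (m + 2) → F) :=
      fun i j t hij hj => by rw [xs_mulVec hij]; simp [ev, hj]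
    have e' := eq_of_mk_eq (v := ev (1 : Fin (m + 2))) (by simp [ev]) ?_ ?_ e
    · have e'' := congrArg (fun z : Matrix.SpecialLinearGroup (Fin (m + 2)) F => z.1 *ᵥ ev 0) e'
      rw [hxy, hyx] at e''
      have e3 := congrFun e'' L
      simp [ev, e0L, e0L.symm] at e3
      have hneg : ψ L (-1) = -ψ L 1 := by
        have h0 : ψ L 0 = 0 := by
          have := hadd L 0 0
          rw [add_zero] at this
          exact left_eq_add.1 this
        refine eq_neg_of_add_eq_zero_left ?_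
        rw [← hadd, neg_add_cancel, h0]
      rw [hneg] at e3
      have hne : ψ L 1 ≠ 0 := fun hz => by
        have h0 : ψ L 0 = 0 := by
          have := hadd L 0 0
          rw [add_zero] at this
          exact left_eq_add.1 this
        exact one_ne_zero (hinj L (hz.trans h0.symm))
      rcases e3 with e3 | e3
      · exact absurd (neg_eq_zero.1 e3) hne
      · linear_combination -e3
    · simp only [Matrix.SpecialLinearGroup.coe_mul, ← mulVec_mulVec, hfix _ _ _ e0L e1L.symm,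
        hfix _ _ _ e0L.symm e01]
    · simp only [Matrix.SpecialLinearGroup.coe_mul, ← mulVec_mulVec, hfix _ _ _ e0L e1L.symm,
        hfix _ _ _ e0L.symm e01]
  let f : F →+* F :=
    { toFun := ψ 0
      map_one' := hψ01
      map_mul' := hmul
      map_zero' := by
        have := hadd 0 0 0
        rw [add_zero] at this
        exact left_eq_add.1 this
      map_add' := hadd 0 }
  let σ : F ≃+* F := RingEquiv.ofBijective f (Finite.injective_iff_bijective.1 (hinj 0))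
  refine ⟨σ, eq_of_chain hn2 fun i t => ?_⟩
  rw [h, frobP_xp σ (add_one_ne hn2 i).symm]
  congr 1
  show ψ i t = ψ 0 t
  by_cases hi : (i : ℕ) + 1 < m + 2
  · rw [← hsame (i : ℕ) hi t, Fin.cast_val_eq_self]
  · have hiL : i = L := Fin.ext (by rw [show (L : Fin (m + 2)).val = m + 1 from hcast _ (by omega)]; omega)
    rw [hiL, hlast, hc, one_mul]

/-- **Automorphisms of `PSL_n(F)`, `n ≥ 3`.** -/
theorem exists_decomp_of_three_le (hn : 3 ≤ n) (β : MulAut PSLn) :
    ∃ (g : GL (Fin n) F) (σ : F ≃+* F) (γ : MulAut PSLn), (γ = 1 ∨ γ = itP) ∧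
      β = conjP g * frobP σ * γ := by
  obtain ⟨g1, γ, hγ, ψ, hψ⟩ := exists_chain_fixed hn β
  obtain ⟨g2, ψ', hψ', h1⟩ := exists_normalized hn hψ
  obtain ⟨σ, hσ⟩ := exists_frob hn hψ' h1
  rcases hγ with rfl | rfl
  · refine ⟨(g2 * g1)⁻¹, σ, 1, Or.inl rfl, ?_⟩
    rw [map_inv, map_mul, ← hσ]
    group
  · refine ⟨itGL (g2 * g1)⁻¹, σ, itP, Or.inr rfl, ?_⟩
    have e : β = itP * conjP (g2 * g1)⁻¹ * frobP σ := by
      rw [map_inv, map_mul, ← hσ]
      calc β = itP * itP * β := by rw [itP_mul_itP, one_mul]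
        _ = _ := by group
    rw [e, itP_conjP, mul_assoc, ← frobP_itP, ← mul_assoc]

end Cfsg.Lib.Classical.PSLAut
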