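/-
Automorphisms of `PSL_n(F)`: every automorphism is inner-diagonal · field · (identity or inverse transpose).
-/
import Mathlib
import Cfsg.Agent.Lib.Classical.PSLAut.Large

set_option autoImplicit false

open scoped Classical

namespace Cfsg.Lib.Classical.PSLAut

open Matrix
open scoped MatrixGroups

section Two

variable {F : Type*} [Field F]

local notation "SL2" => Matrix.SpecialLinearGroup (Fin 2) F
local notation "PSL2" => Matrix.ProjectiveSpecialLinearGroup (Fin 2) F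

theorem h01 : (0 : Fin 2) ≠ 1 := by decide
theorem h10 : (1 : Fin 2) ≠ 0 := by decide

theorem xs01 (t : F) : (xs (0 : Fin 2) 1 t).1 = !![1, t; 0, 1] := by
  ext i j; fin_cases i <;> fin_cases j <;> simp [xs_apply]

theorem xs10 (t : F) : (xs (1 : Fin 2) 0 t).1 = !![1, 0; t, 1] := by
  ext i j; fin_cases i <;> fin_cases j <;> simp [xs_apply]

theorem braid_two {a b : F} (ha : a ≠ 0) (hb : b ≠ 0) :
    xp (0 : Fin 2) 1 a * xp 1 0 b * xp 0 1 a = xp 1 0 b * xp 0 1 a * xp 1 0 b ↔ a * b = -1 := by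
  rw [xp_eq, xp_eq, ← QuotientGroup.mk_mul, ← QuotientGroup.mk_mul, ← QuotientGroup.mk_mul, ← QuotientGroup.mk_mul,
    mk_eq_iff]
  simp only [Matrix.SpecialLinearGroup.coe_mul, xs01, xs10, Matrix.mul_fin_two, Matrix.smul_of,
    Matrix.smul_cons, Matrix.smul_empty, smul_eq_mul]
  constructor
  · rintro ⟨r, -, h⟩
    have e00 := congrFun (congrFun h 0) 0
    have e01 := congrFun (congrFun h 0) 1
    have e10 := congrFun (congrFun h 1) 0
    simp at e00 e01 e10
    have f01 : (1 : F) = r * (2 + a * b) := by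
      refine mul_left_cancel₀ ha ?_
      linear_combination e01
    have f10 : 2 + a * b = r := by
      refine mul_left_cancel₀ hb ?_
      linear_combination e10
    have hr : (r - 1) * (r - 1) = 0 := by linear_combination (-1 : F) * e00 + (1 - r) * f10
    have hr1 : r = 1 := sub_eq_zero.1 (mul_self_eq_zero.1 hr)
    rw [hr1] at f10
    linear_combination f10
  · intro h
    refine ⟨1, one_pow _, ?_⟩
    ext i j
    fin_cases i <;> fin_cases j <;> simp
    · exact Or.inl (by linear_combination h)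
    · exact Or.inl (by linear_combination h)

theorem weyl_two {A B C : F} (hA : A ≠ 0)
    (h : xp (0 : Fin 2) 1 A * xp 1 0 (-A⁻¹) * xp 0 1 A * xp 1 0 B =
      xp 0 1 C * (xp (0 : Fin 2) 1 A * xp 1 0 (-A⁻¹) * xp 0 1 A)) : C = -(A ^ 2 * B) := by
  rw [xp_eq, xp_eq, xp_eq, xp_eq, ← QuotientGroup.mk_mul, ← QuotientGroup.mk_mul, ← QuotientGroup.mk_mul,
    ← QuotientGroup.mk_mul, mk_eq_iff] at h
  obtain ⟨r, -, h⟩ := h
  simp only [Matrix.SpecialLinearGroup.coe_mul, xs01, xs10, Matrix.mul_fin_two, Matrix.smul_of,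
    Matrix.smul_cons, Matrix.smul_empty, smul_eq_mul] at h
  have e00 := congrFun (congrFun h 0) 0
  have e01 := congrFun (congrFun h 0) 1
  simp [hA] at e00 e01
  subst e01
  field_simp at e00
  linear_combination -e00

theorem not_commute_two : ¬ Commute (xp (0 : Fin 2) 1 (1 : F)) (xp 1 0 1) := by
  intro h
  have h' := h.eq
  rw [xp_eq, xp_eq, ← QuotientGroup.mk_mul, ← QuotientGroup.mk_mul, mk_eq_iff] at h'
  obtain ⟨r, -, h'⟩ := h'
  simp only [Matrix.SpecialLinearGroup.coe_mul, xs01, xs10, Matrix.mul_fin_two, Matrix.smul_of,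
    Matrix.smul_cons, Matrix.smul_empty, smul_eq_mul] at h'
  have e00 := congrFun (congrFun h' 0) 0
  have e01 := congrFun (congrFun h' 0) 1
  simp at e00 e01
  subst e01
  simp at e00

variable [Fintype F]

/-- An automorphism can be moved to one normalising both root groups. -/
theorem exists_frame_two (β : MulAut PSL2) :
    ∃ (g : GL (Fin 2) F) (ψ ψ' : F → F),
      (∀ t, (conjP g * β) (xp 0 1 t) = xp 0 1 (ψ t)) ∧ ∀ t, (conjP g * β) (xp 1 0 t) = xp 1 0 (ψ' t) := by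
  obtain ⟨v, φ, ψ, h1, hv, hφ, h4⟩ := exists_image le_rfl β (h01 : (0 : Fin 2) ≠ 1)
  obtain ⟨w, χ, ψ', k1, hw, hχ, k4⟩ := exists_image le_rfl β (h10 : (1 : Fin 2) ≠ 0)
  have hdet : (Matrix.of fun i j => (if j = 0 then v else w) i : Matrix (Fin 2) (Fin 2) F).det ≠ 0 := by
    intro hd
    rw [det_fin_two] at hd
    simp at hd
    obtain ⟨c, hc⟩ : ∃ c : F, w = c • v := by
      by_cases h0 : v 0 = 0
      · have hv1 : v 1 ≠ 0 := fun e => hv (by funext i; fin_cases i <;> simp [h0, e])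
        refine ⟨w 1 / v 1, ?_⟩
        rw [h0, zero_mul, zero_sub, neg_eq_zero] at hd
        have hw0 : w 0 = 0 := (mul_eq_zero.1 hd).resolve_right hv1
        funext i; fin_cases i <;> simp [h0, hw0, hv1]
      · refine ⟨w 0 / v 0, ?_⟩
        funext i; fin_cases i <;> simp [h0]
        field_simp
        linear_combination hd
    have hc0 : c ≠ 0 := fun e => hw (by rw [hc, e, zero_smul])
    have hχv : χ ⬝ᵥ v = 0 := by
      rw [hc, dotProduct_smul] at k1
      exact (smul_eq_zero.1 k1).resolve_left hc0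
    apply not_commute_two (F := F)
    have hcomm : Commute (β (xp 0 1 1)) (β (xp 1 0 1)) := by
      rw [h4, k4, hc]
      refine congrArg QuotientGroup.mk (ext_mulVec' fun y => ?_)
      have a1 : φ ⬝ᵥ (ψ 1 • v) = 0 := by rw [dotProduct_smul, h1, smul_zero]
      have a2 : χ ⬝ᵥ (ψ' 1 • c • v) = 0 := by rw [← hc, dotProduct_smul, k1, smul_zero]
      simp only [Matrix.SpecialLinearGroup.coe_mul, ← mulVec_mulVec, tvS_mulVec a1, tvS_mulVec a2,
        dotProduct_add, dotProduct_smul, h1, hχv, smul_zero, add_zero]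
      abel
    simpa using hcomm.map β.symm.toMonoidHom
  let G : GL (Fin 2) F := Matrix.GeneralLinearGroup.mkOfDetNeZero _ hdet
  have hG0 : (G : Matrix (Fin 2) (Fin 2) F) *ᵥ ev 0 = v := by funext i; simp [G, ev]
  have hG1 : (G : Matrix (Fin 2) (Fin 2) F) *ᵥ ev 1 = w := by funext i; simp [G, ev]
  have hf : φ ᵥ* (G : Matrix (Fin 2) (Fin 2) F) = (φ ⬝ᵥ w) • ev 1 := by
    funext l
    fin_cases l
    · have e : (φ ᵥ* (G : Matrix (Fin 2) (Fin 2) F)) ⬝ᵥ ev 0 = 0 := by rw [← dotProduct_mulVec, hG0, h1]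
      simpa [ev] using e
    · have e : (φ ᵥ* (G : Matrix (Fin 2) (Fin 2) F)) ⬝ᵥ ev 1 = φ ⬝ᵥ w := by rw [← dotProduct_mulVec, hG1]
      simpa [ev] using e
  have hg : χ ᵥ* (G : Matrix (Fin 2) (Fin 2) F) = (χ ⬝ᵥ v) • ev 0 := by
    funext l
    fin_cases l
    · have e : (χ ᵥ* (G : Matrix (Fin 2) (Fin 2) F)) ⬝ᵥ ev 0 = χ ⬝ᵥ v := by rw [← dotProduct_mulVec, hG0]
      simpa [ev] using e
    · have e : (χ ᵥ* (G : Matrix (Fin 2) (Fin 2) F)) ⬝ᵥ ev 1 = 0 := by rw [← dotProduct_mulVec, hG1, k1]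
      simpa [ev] using e
  refine ⟨G⁻¹, fun t => φ ⬝ᵥ w * ψ t, fun t => χ ⬝ᵥ v * ψ' t, fun t => ?_, fun t => ?_⟩
  · rw [MulAut.mul_apply, h4, show (QuotientGroup.mk (tvS (ψ t • v) φ) : PSL2) = pp (ψ t • v) φ from rfl,
      conjP_pp _ (by rw [dotProduct_smul, h1, smul_zero]), inv_inv, mulVec_smul, hf, ← hG0,
      Cfsg.Lib.Classical.inv_mulVec_mulVec, xp_eq_pp, mul_smul]
    exact congrArg QuotientGroup.mk (tvS_smul (dot_xs h01 _) _).symm
  · rw [MulAut.mul_apply, k4, show (QuotientGroup.mk (tvS (ψ' t • w) χ) : PSL2) = pp (ψ' t • w) χ from rfl,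
      conjP_pp _ (by rw [dotProduct_smul, k1, smul_zero]), inv_inv, mulVec_smul, hg, ← hG1,
      Cfsg.Lib.Classical.inv_mulVec_mulVec, xp_eq_pp, mul_smul]
    exact congrArg QuotientGroup.mk (tvS_smul (dot_xs h10 _) _).symm

/-- **Automorphisms of `PSL_2(F)`.** -/
theorem exists_decomp_two (β : MulAut PSL2) :
    ∃ (g : GL (Fin 2) F) (σ : F ≃+* F), β = conjP g * frobP σ := by
  obtain ⟨g1, ψ0, ψ0', h0, h0'⟩ := exists_frame_two β
  have hinj0 : Function.Injective ψ0 := fun a b e =>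
    xp_injective h01 ((conjP g1 * β).injective (by rw [h0, h0, e]))
  have hψ00 : ψ0 0 = 0 := by
    have h := h0 0
    rw [show xp (0 : Fin 2) 1 (0 : F) = 1 by rw [xp_eq, xs_zero h01]; rfl, map_one] at h
    refine (xp_injective h01 ?_).symm
    rw [← h, xp_eq, xs_zero h01]; rfl
  have hA : ψ0 1 ≠ 0 := fun e => one_ne_zero (hinj0 (e.trans hψ00.symm))
  let D : GL (Fin 2) F := Matrix.GeneralLinearGroup.mkOfDetNeZero !![1, 0; 0, ψ0 1]
    (by rw [det_fin_two_of]; simpa using hA)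
  have hD : ∀ t, conjP D (xp 0 1 t) = xp 0 1 (t / ψ0 1) ∧ conjP D (xp 1 0 t) = xp 1 0 (ψ0 1 * t) := by
    intro t
    constructor <;> rw [xp_eq, conjP_mk] <;> refine congrArg QuotientGroup.mk (Subtype.ext ?_) <;>
      rw [coe_conjSLHom, Units.mul_inv_eq_iff_eq_mul]
    · rw [xs01, xs01]
      show !![1, 0; 0, ψ0 1] * !![1, t; 0, 1] = !![1, t / ψ0 1; 0, 1] * !![1, 0; 0, ψ0 1]
      ext i j; fin_cases i <;> fin_cases j <;> simp [hA]
    · rw [xs10, xs10]
      show !![1, 0; 0, ψ0 1] * !![1, 0; t, 1] = !![1, 0; ψ0 1 * t, 1] * !![1, 0; 0, ψ0 1]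
      ext i j; fin_cases i <;> fin_cases j <;> simp
  set δ : MulAut PSL2 := conjP (D * g1) * β
  set ψ : F → F := fun t => ψ0 t / ψ0 1
  set ψ' : F → F := fun t => ψ0 1 * ψ0' t
  have h : ∀ t, δ (xp 0 1 t) = xp 0 1 (ψ t) := fun t => by
    show (conjP (D * g1) * β) _ = _
    rw [map_mul, mul_assoc, MulAut.mul_apply, h0, (hD _).1]
  have h' : ∀ t, δ (xp 1 0 t) = xp 1 0 (ψ' t) := fun t => by
    show (conjP (D * g1) * β) _ = _
    rw [map_mul, mul_assoc, MulAut.mul_apply, h0', (hD _).2]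
  have hψ1 : ψ 1 = 1 := div_self hA
  have hadd : ∀ a b, ψ (a + b) = ψ a + ψ b := fun a b => by
    refine xp_injective h01 ?_
    rw [← h, xp_eq, xs_add h01, QuotientGroup.mk_mul, map_mul, ← xp_eq, ← xp_eq, h, h, xp_eq, xp_eq,
      ← QuotientGroup.mk_mul, ← xs_add h01]
    rfl
  have hinj : Function.Injective ψ := fun a b e => hinj0 ((div_left_inj' hA).1 e)
  have hz : ψ 0 = 0 := by simp [ψ, hψ00]
  have hne : ∀ a, a ≠ 0 → ψ a ≠ 0 := fun a ha e => ha (hinj (e.trans hz.symm))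
  have hinj' : Function.Injective ψ' := fun a b e => xp_injective h10 (δ.injective (by rw [h', h', e]))
  have hz' : ψ' 0 = 0 := by
    have e := h' 0
    rw [show xp (1 : Fin 2) 0 (0 : F) = 1 by rw [xp_eq, xs_zero h10]; rfl, map_one] at e
    refine (xp_injective h10 ?_).symm
    rw [← e, xp_eq, xs_zero h10]; rfl
  have hbr : ∀ a, a ≠ 0 → ψ' (-a⁻¹) = -(ψ a)⁻¹ := by
    intro a ha
    have hb : -a⁻¹ ≠ 0 := neg_ne_zero.2 (inv_ne_zero ha)
    have e := congrArg δ ((braid_two ha hb).2 (by rw [mul_neg, mul_inv_cancel₀ ha]))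
    simp only [map_mul, h, h'] at e
    have := (braid_two (hne a ha) (fun e0 => hb (hinj' (e0.trans hz'.symm)))).1 e
    rw [← inv_mul_cancel_left₀ (hne a ha) (ψ' (-a⁻¹)), this, mul_neg, mul_one]
  have hsq : ∀ a s, a ≠ 0 → ψ (-(a ^ 2 * s)) = -(ψ a ^ 2 * ψ' s) := by
    intro a s ha
    refine weyl_two (hne a ha) ?_
    rw [← hbr a ha, ← h, ← h, ← h', ← h', ← map_mul, ← map_mul, ← map_mul, ← map_mul]
    congr 1
    rw [xp_eq, xp_eq, xp_eq, xp_eq, ← QuotientGroup.mk_mul, ← QuotientGroup.mk_mul, ← QuotientGroup.mk_mul,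
      ← QuotientGroup.mk_mul]
    refine congrArg QuotientGroup.mk (Subtype.ext ?_)
    simp only [Matrix.SpecialLinearGroup.coe_mul, xs01, xs10, Matrix.mul_fin_two]
    ext i j
    fin_cases i <;> fin_cases j <;> simp [ha] <;> field_simp
  have hneg : ∀ a, ψ (-a) = -ψ a := fun a =>
    eq_neg_of_add_eq_zero_left (by rw [← hadd, neg_add_cancel, hz])
  have heq : ∀ s, ψ' s = ψ s := by
    intro s
    have e := hsq 1 s one_ne_zero
    rw [one_pow, one_mul, hψ1, one_pow, one_mul, hneg, neg_inj] at e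
    exact e.symm
  have hquad : ∀ a s, ψ (a ^ 2 * s) = ψ a ^ 2 * ψ s := by
    intro a s
    by_cases ha : a = 0
    · simp [ha, hz]
    have e := hsq a s ha
    rw [hneg, heq, neg_inj] at e
    exact e
  have hmul : ∀ a b, ψ (a * b) = ψ a * ψ b := by
    intro a b
    by_cases h2 : (2 : F) = 0
    · haveI : CharP F 2 := CharTwo.of_one_ne_zero_of_two_eq_zero one_ne_zero h2
      haveI : Fact (Nat.Prime 2) := ⟨Nat.prime_two⟩
      obtain ⟨c, hc⟩ := (bijective_frobenius F 2).2 a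
      have hc' : c ^ 2 = a := hc
      have e := hquad c 1
      rw [mul_one, hψ1, mul_one] at e
      rw [← hc', hquad, e]
    · have e1 := hquad (a + b) 1
      have e2 := hquad a 1
      have e3 := hquad b 1
      rw [mul_one, hψ1, mul_one] at e1 e2 e3
      rw [show (a + b) ^ 2 = a ^ 2 + b ^ 2 + (a * b + a * b) by ring, hadd, hadd, hadd, hadd] at e1
      refine mul_left_cancel₀ h2 ?_
      linear_combination e1 - e2 - e3
  let f : F →+* F :=
    { toFun := ψ
      map_one' := hψ1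
      map_mul' := hmul
      map_zero' := hz
      map_add' := hadd }
  let σ : F ≃+* F := RingEquiv.ofBijective f (Finite.injective_iff_bijective.1 hinj)
  have hδ : δ = frobP σ := by
    refine eq_of_chain le_rfl fun i t => ?_
    rw [frobP_xp σ (add_one_ne le_rfl i).symm]
    fin_cases i
    · show δ (xp 0 1 t) = xp 0 1 (ψ t)
      exact h t
    · show δ (xp 1 0 t) = xp 1 0 (ψ t)
      rw [h', heq]
  exact ⟨(D * g1)⁻¹, σ, by rw [map_inv, ← hδ]; exact (inv_mul_cancel_left _ β).symm⟩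

end Two

variable {n : ℕ} {F : Type*} [Field F] [Fintype F]

/-- **Automorphisms of `PSL_n(F)`.** -/
theorem exists_decomp (hn : 2 ≤ n) (β : MulAut (Matrix.ProjectiveSpecialLinearGroup (Fin n) F)) :
    ∃ (g : GL (Fin n) F) (σ : F ≃+* F) (γ : MulAut (Matrix.ProjectiveSpecialLinearGroup (Fin n) F)),
      (γ = 1 ∨ (3 ≤ n ∧ γ = itP)) ∧ β = conjP g * frobP σ * γ := by
  rcases eq_or_lt_of_le hn with rfl | h
  · obtain ⟨g, σ, h⟩ := exists_decomp_two β
    exact ⟨g, σ, 1, Or.inl rfl, by rw [mul_one]; exact h⟩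
  · haveI : NeZero n := ⟨by omega⟩
    obtain ⟨g, σ, γ, hγ, h'⟩ := exists_decomp_of_three_le (by omega) β
    exact ⟨g, σ, γ, hγ.imp id fun e => ⟨by omega, e⟩, h'⟩

end Cfsg.Lib.Classical.PSLAut
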