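/-
Uniqueness of the decomposition of an automorphism of `PSL_n(F)`.
-/
import Mathlib
import Cfsg.Agent.Lib.Classical.PSLAut.Main

set_option autoImplicit false

open scoped Classical

namespace Cfsg.Lib.Classical.PSLAut

open Matrix
open scoped MatrixGroups

variable {n : ℕ} {F : Type*} [Field F]

local notation "PSLn" => Matrix.ProjectiveSpecialLinearGroup (Fin n) F

theorem pp_eq {v w φ χ : Fin n → F} (h1 : φ ⬝ᵥ v = 0) (h2 : χ ⬝ᵥ w = 0) (hv : v ≠ 0)
    (h : pp v φ = pp w χ) : ∀ y, (χ ⬝ᵥ y) • w = (φ ⬝ᵥ y) • v := by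
  obtain ⟨r, -, hr⟩ := mk_eq_iff.1 h
  have happ : ∀ y, (tvS w χ).1 *ᵥ y = r • ((tvS v φ).1 *ᵥ y) := fun y => by rw [hr, smul_mulVec]
  have e := happ v
  rw [tvS_mulVec h2, tvS_mulVec h1, h1, zero_smul, add_zero] at e
  have hr1 : r = 1 := by
    by_contra hr1
    have e' : (χ ⬝ᵥ v) • w = (r - 1) • v := by rw [sub_smul, one_smul, ← e]; abel
    have e2 := congrArg (fun z => χ ⬝ᵥ z) e'
    simp only [dotProduct_smul, smul_eq_mul, h2, mul_zero] at e2
    rw [(mul_eq_zero.1 e2.symm).resolve_left (sub_ne_zero.2 hr1), zero_smul] at e'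
    exact hv ((smul_eq_zero.1 e'.symm).resolve_left (sub_ne_zero.2 hr1))
  intro y
  have e' := happ y
  rw [hr1, one_smul, tvS_mulVec h2, tvS_mulVec h1] at e'
  exact add_left_cancel e'

theorem conj_frob_xp (g : GL (Fin n) F) (σ : F ≃+* F) {i j : Fin n} (hij : i ≠ j) (t : F) :
    (conjP g * frobP σ : MulAut PSLn) (xp i j t) = pp (σ t • ((g : Matrix (Fin n) (Fin n) F) *ᵥ ev i))
      (ev j ᵥ* ((g⁻¹ : GL (Fin n) F) : Matrix (Fin n) (Fin n) F)) := by
  rw [MulAut.mul_apply, frobP_xp σ hij, xp_eq_pp, conjP_pp _ (dot_xs hij _), mulVec_smul]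

theorem dot_conj (g : GL (Fin n) F) {i j : Fin n} (hij : i ≠ j) (c : F) :
    (ev j ᵥ* ((g⁻¹ : GL (Fin n) F) : Matrix (Fin n) (Fin n) F)) ⬝ᵥ
      (c • ((g : Matrix (Fin n) (Fin n) F) *ᵥ ev i)) = 0 := by
  rw [dotProduct_smul, ← dotProduct_mulVec, Cfsg.Lib.Classical.inv_mulVec_mulVec, ev_dot hij.symm, smul_zero]

/-- The only trivial product of a conjugation and a field automorphism is scalar. -/
theorem scalar_of_conj_frob_eq_one (hn : 2 ≤ n) {g : GL (Fin n) F} {σ : F ≃+* F}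
    (h : (conjP g * frobP σ : MulAut PSLn) = 1) : σ = 1 ∧ ∃ c : Fˣ, g = Matrix.GeneralLinearGroup.scalar (Fin n) c := by
  haveI : Nontrivial (Fin n) := Fin.nontrivial_iff_two_le.2 hn
  have key : ∀ i j : Fin n, i ≠ j → ∀ t : F, t ≠ 0 → ∀ y,
      ((ev j ᵥ* ((g⁻¹ : GL (Fin n) F) : Matrix (Fin n) (Fin n) F)) ⬝ᵥ y) •
        (σ t • ((g : Matrix (Fin n) (Fin n) F) *ᵥ ev i)) = ((ev j : Fin n → F) ⬝ᵥ y) • (t • (ev i : Fin n → F)) := by
    intro i j hij t ht y
    have e := conj_frob_xp g σ hij t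
    rw [h, MulAut.one_apply, xp_eq_pp] at e
    exact pp_eq (dot_xs hij t) (dot_conj g hij _) (smul_ne_zero ht (by simp [ev])) e y
  have hd : ∀ i, ∃ a : F, (g : Matrix (Fin n) (Fin n) F) *ᵥ ev i = a • ev i ∧ a ≠ 0 := by
    intro i
    obtain ⟨j, hij⟩ := exists_ne i
    have e := key i j hij.symm 1 one_ne_zero ((g : Matrix (Fin n) (Fin n) F) *ᵥ ev j)
    rw [← dotProduct_mulVec, Cfsg.Lib.Classical.inv_mulVec_mulVec, ev_self_dot, one_smul, map_one, one_smul,
      one_smul] at e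
    refine ⟨ev j ⬝ᵥ ((g : Matrix (Fin n) (Fin n) F) *ᵥ ev j), e, fun e0 => ?_⟩
    rw [e0, zero_smul] at e
    exact Cfsg.Lib.Classical.mulVec_ne_zero g (x := ev i) (by simp [ev]) e
  choose a ha ha0 using hd
  have hg : (g : Matrix (Fin n) (Fin n) F) = Matrix.diagonal a := by
    refine Matrix.ext_of_mulVec_single fun i => ?_
    show (g : Matrix (Fin n) (Fin n) F) *ᵥ ev i = Matrix.diagonal a *ᵥ ev i
    rw [ha]; funext k
    by_cases hk : k = i <;> simp [mulVec_diagonal, ev, hk]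
  have hrel : ∀ i j : Fin n, i ≠ j → ∀ t : F, t ≠ 0 → σ t * a i = t * a j := by
    intro i j hij t ht
    have e := key i j hij t ht ((g : Matrix (Fin n) (Fin n) F) *ᵥ ev j)
    rw [← dotProduct_mulVec, Cfsg.Lib.Classical.inv_mulVec_mulVec, ev_self_dot, one_smul, ha, ha,
      dotProduct_smul, ev_self_dot, smul_smul, smul_smul, smul_eq_mul, mul_one] at e
    have := congrFun e i
    simp [ev] at this
    rw [this, mul_comm]
  have heq : ∀ i j, a i = a j := by
    intro i j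
    by_cases hij : i = j
    · rw [hij]
    simpa using hrel i j hij 1 one_ne_zero
  obtain ⟨i, j, hij⟩ := exists_pair_ne (Fin n)
  refine ⟨RingEquiv.ext fun t => ?_, ⟨Units.mk0 (a i) (ha0 i), Units.ext ?_⟩⟩
  · by_cases ht : t = 0
    · simp [ht]
    have := hrel i j hij t ht
    rw [heq j i] at this
    exact mul_right_cancel₀ (ha0 i) this
  · rw [hg]
    show Matrix.diagonal a = Matrix.scalar (Fin n) (a i)
    rw [scalar_apply]
    exact congrArg _ (funext fun k => heq k i)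

/-- The inverse transpose is not a product of a conjugation and a field automorphism. -/
theorem conj_frob_ne_itP (hn : 3 ≤ n) (g : GL (Fin n) F) (σ : F ≃+* F) :
    conjP g * frobP σ ≠ (itP : MulAut (Matrix.ProjectiveSpecialLinearGroup (Fin n) F)) := by
  intro h
  have hpar : ∀ i j : Fin n, i ≠ j → ∃ a : F, (g : Matrix (Fin n) (Fin n) F) *ᵥ ev i = a • ev j := by
    intro i j hij
    have e := conj_frob_xp g σ hij 1
    rw [h, xp_eq_pp, itP_pp (dot_xs hij 1), map_one, one_smul, one_smul] at e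
    have e' := pp_eq (v := -ev j) (φ := ev i) (by rw [dotProduct_neg, ev_dot hij, neg_zero])
      (by simpa using dot_conj g hij 1) (by simp [ev]) e ((g : Matrix (Fin n) (Fin n) F) *ᵥ ev j)
    rw [← dotProduct_mulVec, Cfsg.Lib.Classical.inv_mulVec_mulVec, ev_self_dot, one_smul] at e'
    exact ⟨-(ev i ⬝ᵥ ((g : Matrix (Fin n) (Fin n) F) *ᵥ ev j)), by rw [e', smul_neg, neg_smul]⟩
  let i : Fin n := ⟨0, by omega⟩
  let j : Fin n := ⟨1, by omega⟩
  let k : Fin n := ⟨2, by omega⟩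
  obtain ⟨a, ha⟩ := hpar i j (by simp [i, j, Fin.ext_iff])
  obtain ⟨b, hb⟩ := hpar i k (by simp [i, k, Fin.ext_iff])
  have hjk : j ≠ k := by simp [j, k, Fin.ext_iff]
  have hab := congrFun (ha.symm.trans hb) j
  simp [ev, hjk] at hab
  rw [hab, zero_smul] at ha
  exact Cfsg.Lib.Classical.mulVec_ne_zero g (x := ev i) (by simp [ev]) ha

theorem conjP_scalar (c : Fˣ) :
    conjP (n := n) (Matrix.GeneralLinearGroup.scalar (Fin n) c) = 1 := by
  refine MulEquiv.ext fun x => ?_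
  induction x using QuotientGroup.induction_on with
  | H s =>
    rw [conjP_mk, MulAut.one_apply]
    refine congrArg QuotientGroup.mk (Subtype.ext ?_)
    rw [coe_conjSLHom, Units.mul_inv_eq_iff_eq_mul]
    show Matrix.scalar (Fin n) (c : F) * s.1 = s.1 * Matrix.scalar (Fin n) (c : F)
    exact (Matrix.scalar_commute _ (fun x => Commute.all _ x) _).eq

theorem conjP_ker (hn : 2 ≤ n) :
    (conjP (n := n) (F := F)).ker = Subgroup.center (GL (Fin n) F) := by
  ext g
  rw [MonoidHom.mem_ker, Matrix.GeneralLinearGroup.center_eq_range_scalar, MonoidHom.mem_range]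
  constructor
  · intro h
    obtain ⟨-, c, hc⟩ := scalar_of_conj_frob_eq_one hn (g := g) (σ := 1) (by rw [frobP_one, mul_one, h])
    exact ⟨c, hc.symm⟩
  · rintro ⟨c, rfl⟩
    exact conjP_scalar c

/-- `PGL_n(F)` is the inner-diagonal group. -/
noncomputable def pglEquiv (hn : 2 ≤ n) :
    Matrix.ProjGenLinGroup (Fin n) F ≃* ↥(inndiagPSL n F) :=
  (QuotientGroup.quotientMulEquivOfEq (conjP_ker hn).symm).trans
    ((QuotientGroup.quotientKerEquivRange conjP).trans (MulEquiv.subgroupCongr inndiag_eq.symm))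

variable [Fintype F]

theorem card_mulAut {p f : ℕ} [Fact p.Prime] (hf : Fintype.card F = p ^ f) (hn : 2 ≤ n)
    (hf' : Nat.card (F ≃+* F) = f) :
    Nat.card (MulAut (Matrix.ProjectiveSpecialLinearGroup (Fin n) F)) =
      (if n = 2 then 1 else 2) * f * Nat.card (Matrix.ProjGenLinGroup (Fin n) F) := by
  let Γ : Set (MulAut (Matrix.ProjectiveSpecialLinearGroup (Fin n) F)) := {γ | γ = 1 ∨ (3 ≤ n ∧ γ = itP)}
  let m : ↥(inndiagPSL n F) × (F ≃+* F) × Γ → MulAut (Matrix.ProjectiveSpecialLinearGroup (Fin n) F) :=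
    fun x => x.1.1 * frobP x.2.1 * x.2.2.1
  have hm : Function.Bijective m := by
    refine ⟨?_, fun β => ?_⟩
    · rintro ⟨⟨d, hd⟩, σ, ⟨γ, hγ⟩⟩ ⟨⟨d', hd'⟩, σ', ⟨γ', hγ'⟩⟩ e
      rw [inndiag_eq] at hd hd'
      obtain ⟨a, rfl⟩ := hd
      obtain ⟨b, rfl⟩ := hd'
      change conjP a * frobP σ * γ = conjP b * frobP σ' * γ' at e
      have hγeq : γ = γ' := by
        have e1 : γ * γ'⁻¹ = frobP σ⁻¹ * conjP (a⁻¹ * b) * frobP σ' := by
          rw [show frobP σ⁻¹ = ((frobP σ : MulAut (Matrix.ProjectiveSpecialLinearGroup (Fin n) F)))⁻¹ from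
            map_inv frobHom σ, map_mul, map_inv]
          rw [mul_inv_eq_iff_eq_mul, ← mul_right_inj (conjP a * frobP σ), e]
          group
        rw [frobP_conjP, mul_assoc, frobP_mul] at e1
        rcases hγ with rfl | ⟨h3, rfl⟩ <;> rcases hγ' with rfl | ⟨h3', rfl⟩
        · rfl
        · rw [one_mul, itP_inv] at e1
          exact absurd e1.symm (conj_frob_ne_itP h3' _ _)
        · rw [inv_one, mul_one] at e1
          exact absurd e1.symm (conj_frob_ne_itP h3 _ _)
        · rfl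
      subst hγeq
      have e2 := mul_right_cancel e
      have e3 : conjP (b⁻¹ * a) * frobP (σ * σ'⁻¹) = 1 := by
        rw [map_mul, map_inv, ← frobP_mul, show frobP σ'⁻¹ =
          ((frobP σ' : MulAut (Matrix.ProjectiveSpecialLinearGroup (Fin n) F)))⁻¹ from map_inv frobHom σ',
          ← mul_assoc, mul_assoc (conjP b)⁻¹, e2]
        group
      obtain ⟨hσ, c, hc⟩ := scalar_of_conj_frob_eq_one hn e3
      rw [mul_inv_eq_one] at hσ
      subst hσ
      refine Prod.ext (Subtype.ext ?_) rfl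
      exact mul_right_cancel e2
    · obtain ⟨g, σ, γ, hγ, h⟩ := exists_decomp hn β
      exact ⟨(⟨conjP g, by rw [inndiag_eq]; exact ⟨g, rfl⟩⟩, σ, ⟨γ, hγ⟩), h.symm⟩
  rw [← Nat.card_congr (Equiv.ofBijective m hm), Nat.card_prod, Nat.card_prod, hf',
    ← Nat.card_congr (pglEquiv hn).toEquiv]
  have hΓ : Nat.card Γ = if n = 2 then 1 else 2 := by
    rw [Nat.card_coe_set_eq]
    split_ifs with h2
    · rw [show Γ = {1} from Set.ext fun γ => ⟨fun h => h.resolve_right fun h' => by omega, fun h => Or.inl h⟩,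
        Set.ncard_singleton]
    · rw [show Γ = {1, itP} from Set.ext fun γ =>
        ⟨fun h => h.imp id fun h' => h'.2, fun h => h.imp id fun h' => ⟨by omega, h'⟩⟩,
        Set.ncard_pair]
      intro e
      refine conj_frob_ne_itP (by omega : 3 ≤ n) (1 : GL (Fin n) F) 1 ?_
      rw [map_one, frobP_one, one_mul]
      exact e
  rw [hΓ]
  ring

end Cfsg.Lib.Classical.PSLAut
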