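/-
Field and graph-field automorphisms of `PSL_n(F)` of prime order: conjugacy in the inner-diagonal coset.
-/
import Mathlib
import Cfsg.Agent.Lib.Classical.PSLAut.Kernel
import Cfsg.Agent.Lib.Classical.PSLAut.Field
import Cfsg.Agent.Lib.Classical.UnitarySpace

set_option autoImplicit false

open scoped Classical

namespace Cfsg.Lib.Classical.PSLAut

open Matrix
open Cfsg.Lib.Classical.FinField (semi semi_smul speiser nrm coe_nrm nrm_surjective hilbert90 aut_comm)
open scoped MatrixGroups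

variable {n : ℕ} {F : Type*} [Field F]

local notation "PSLn" => Matrix.ProjectiveSpecialLinearGroup (Fin n) F

theorem frobP_inv (σ : F ≃+* F) : (frobP σ⁻¹ : MulAut PSLn) = (frobP σ)⁻¹ := map_inv frobHom σ

theorem mem_inndiag_iff {δ : MulAut PSLn} : δ ∈ inndiagPSL n F ↔ ∃ g, δ = conjP g := by
  rw [inndiag_eq, MonoidHom.mem_range]
  exact exists_congr fun g => eq_comm

theorem frobP_eq_one (hn : 2 ≤ n) {σ : F ≃+* F} (h : (frobP σ : MulAut PSLn) = 1) : σ = 1 :=
  (scalar_of_conj_frob_eq_one hn (g := 1) (by rw [map_one, one_mul, h])).1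

theorem orderOf_frobP (hn : 2 ≤ n) (σ : F ≃+* F) : orderOf (frobP σ : MulAut PSLn) = orderOf σ :=
  orderOf_injective frobHom ((injective_iff_map_eq_one _).2 fun _ h => frobP_eq_one hn h) σ

theorem graphField_order (hn : 3 ≤ n) {σ : F ≃+* F} {r : ℕ} (hr : r.Prime)
    (h : orderOf (frobP σ * itP : MulAut PSLn) = r) (hσ : σ ≠ 1) : r = 2 ∧ orderOf σ = 2 := by
  have hcomm : Commute (frobP σ : MulAut PSLn) itP := frobP_itP σ
  have hpow : ∀ k, (frobP σ * itP : MulAut PSLn) ^ k = frobP (σ ^ k) * itP ^ k := fun k => by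
    rw [hcomm.mul_pow]
    congr 1
    exact (map_pow frobHom σ k).symm
  have h1 := pow_orderOf_eq_one (frobP σ * itP : MulAut PSLn)
  rw [h, hpow] at h1
  rcases hr.eq_two_or_odd' with rfl | ⟨k, rfl⟩
  · rw [pow_two itP, itP_mul_itP, mul_one] at h1
    refine ⟨rfl, orderOf_eq_prime (frobP_eq_one (by omega) h1) hσ⟩
  · rw [pow_succ itP, pow_mul, pow_two itP, itP_mul_itP, one_pow, one_mul, mul_eq_one_iff_eq_inv, itP_inv] at h1
    exact absurd (by rw [map_one, one_mul, h1]) (conj_frob_ne_itP hn (1 : GL (Fin n) F) (σ ^ (2 * k + 1)))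

/-- `g σ(g) ⋯` as the power of a semilinear conjugation. -/
theorem exists_pow_eq (g : GL (Fin n) F) (σ : F ≃+* F) (k : ℕ) :
    ∃ N : GL (Fin n) F, (conjP g * frobP σ : MulAut PSLn) ^ k = conjP N * frobP (σ ^ k) ∧
      ∀ v, (semi g σ)^[k] v = (N : Matrix (Fin n) (Fin n) F) *ᵥ fun i => (σ ^ k) (v i) := by
  induction k with
  | zero => exact ⟨1, by rw [pow_zero, pow_zero, frobP_one, map_one, one_mul], fun v => by simp⟩
  | succ k ih =>
    obtain ⟨N, hN, hv⟩ := ih
    refine ⟨g * mapGL σ N, ?_, fun v => ?_⟩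
    · rw [pow_succ', hN, map_mul, pow_succ', ← frobP_mul]
      calc conjP g * frobP σ * (conjP N * frobP (σ ^ k))
          = conjP g * (frobP σ * conjP N) * frobP (σ ^ k) := by group
        _ = _ := by rw [frobP_conjP]; group
    · rw [Function.iterate_succ_apply', hv, semi, Units.val_mul, ← mulVec_mulVec]
      congr 1
      funext i
      show σ (((N : Matrix (Fin n) (Fin n) F) *ᵥ _) i) = _
      rw [mulVec, dotProduct, map_sum]
      refine Finset.sum_congr rfl fun j _ => ?_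
      rw [map_mul, pow_succ']
      rfl

theorem conj_standard (X : MulAut PSLn) (hX : ∀ τ : F ≃+* F, Commute (frobP τ : MulAut PSLn) X)
    (hXit : Commute (itP : MulAut PSLn) X) {α x : MulAut PSLn}
    (hα : ∃ (g : GL (Fin n) F) (τ : F ≃+* F) (γ : MulAut PSLn), (γ = 1 ∨ γ = itP) ∧ α = conjP g * frobP τ * γ)
    (h : α * x * α⁻¹ = X) : ∃ a : GL (Fin n) F, x = conjP a * X * (conjP a)⁻¹ := by
  obtain ⟨g, τ, γ, hγ, rfl⟩ := hα
  have hγX : Commute γ X := by rcases hγ with rfl | rfl; exacts [Commute.one_left _, hXit]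
  have hu : Commute (frobP τ * γ) X := (hX τ).mul_left hγX
  have hmove : ∃ a : GL (Fin n) F, (frobP τ * γ)⁻¹ * conjP g⁻¹ = conjP a * (frobP τ * γ)⁻¹ := by
    rw [_root_.mul_inv_rev, ← frobP_inv, mul_assoc, frobP_conjP, ← mul_assoc]
    rcases hγ with rfl | rfl
    · exact ⟨_, by rw [inv_one, one_mul, one_mul]⟩
    · exact ⟨_, by rw [itP_inv, itP_conjP, mul_assoc]⟩
  obtain ⟨a, ha⟩ := hmove
  refine ⟨a, ?_⟩
  have hX' : x = ((frobP τ * γ)⁻¹ * conjP g⁻¹) * X * ((frobP τ * γ)⁻¹ * conjP g⁻¹)⁻¹ := by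
    rw [← h, map_inv]; group
  rw [hX', ha]
  calc conjP a * (frobP τ * γ)⁻¹ * X * (conjP a * (frobP τ * γ)⁻¹)⁻¹
      = conjP a * ((frobP τ * γ)⁻¹ * X) * (frobP τ * γ) * (conjP a)⁻¹ := by group
    _ = conjP a * (X * (frobP τ * γ)⁻¹) * (frobP τ * γ) * (conjP a)⁻¹ := by rw [hu.inv_left.eq]
    _ = _ := by group

variable [Fintype F]

theorem exists_standard_field (hn : 2 ≤ n) {x : MulAut PSLn} (hx : IsFieldAutClassPSL x) :
    ∃ (σ : F ≃+* F) (a : GL (Fin n) F), σ ≠ 1 ∧ x = conjP a * frobP σ * (conjP a)⁻¹ := by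
  obtain ⟨α, σ, hσ, h⟩ := hx
  obtain ⟨g, τ, γ, hγ, hα⟩ := exists_decomp hn α
  obtain ⟨a, ha⟩ := conj_standard (frobP σ)
    (fun τ => by show _ * _ = _ * _; rw [frobP_mul, frobP_mul, aut_comm])
    (frobP_itP σ).symm ⟨g, τ, γ, hγ.imp id And.right, hα⟩ (isStdField_iff.1 h)
  exact ⟨σ, a, hσ, ha⟩

theorem exists_standard_graphField {x : MulAut PSLn} (hx : IsGraphFieldAutClassPSL x) :
    3 ≤ n ∧ ∃ (σ : F ≃+* F) (a : GL (Fin n) F), σ ≠ 1 ∧ x = conjP a * (frobP σ * itP) * (conjP a)⁻¹ := by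
  obtain ⟨hn, α, φ, γ', σ, hσ, h1, h2, h⟩ := hx
  obtain rfl := isStdField_iff.1 h1
  obtain rfl := isInverseTranspose_iff.1 h2
  obtain ⟨g, τ, γ, hγ, hα⟩ := exists_decomp (by omega) α
  obtain ⟨a, ha⟩ := conj_standard (frobP σ * itP)
    (fun τ => Commute.mul_right (by show _ * _ = _ * _; rw [frobP_mul, frobP_mul, aut_comm]) (frobP_itP τ))
    (Commute.mul_right (frobP_itP σ).symm (Commute.refl _)) ⟨g, τ, γ, hγ.imp id And.right, hα⟩ h
  exact ⟨hn, σ, a, hσ, ha⟩

theorem field_conj (hn : 2 ≤ n) {σ : F ≃+* F} {r : ℕ} (hr : orderOf σ = r) (g : GL (Fin n) F)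
    (h : (conjP g * frobP σ : MulAut PSLn) ^ r = 1) :
    ∃ a : GL (Fin n) F, (conjP g * frobP σ : MulAut PSLn) = conjP a * frobP σ * (conjP a)⁻¹ := by
  have hr0 : 0 < r := hr ▸ orderOf_pos σ
  obtain ⟨N, hN, hv⟩ := exists_pow_eq g σ r
  rw [hN] at h
  have hσr : σ ^ r = 1 := hr ▸ pow_orderOf_eq_one σ
  obtain ⟨-, c, rfl⟩ := scalar_of_conj_frob_eq_one hn h
  have hTr : ∀ v, (semi g σ)^[r] v = (c : F) • v := fun v => by
    rw [hv, hσr]
    show (Matrix.scalar (Fin n) (c : F)) *ᵥ v = _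
    funext i
    simp [scalar_apply, mulVec_diagonal]
  have hfix : σ (c : F) = c := by
    let i : Fin n := ⟨0, by omega⟩
    have e1 : (semi g σ)^[r] (semi g σ (ev i)) = (c : F) • semi g σ (ev i) := hTr _
    rw [← Function.iterate_succ_apply, Function.iterate_succ_apply', hTr, semi_smul] at e1
    have hne : semi g σ (ev i) ≠ 0 := by
      refine Cfsg.Lib.Classical.mulVec_ne_zero g fun e => ?_
      have := congrFun e i
      simp [ev] at this
    have e2 : (σ (c : F) - c) • semi g σ (ev i) = 0 := by rw [sub_smul, e1, sub_self]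
    exact sub_eq_zero.1 ((smul_eq_zero.1 e2).resolve_right hne)
  obtain ⟨μ, hμ⟩ := nrm_surjective σ hr hr0 (y := c⁻¹) (by rw [Units.val_inv_eq_inv_val, map_inv₀, hfix])
  set g' : GL (Fin n) F := Matrix.GeneralLinearGroup.scalar (Fin n) μ * g
  have hsemi : ∀ v, semi g' σ v = (μ : F) • semi g σ v := fun v => by
    rw [semi, semi, Units.val_mul, ← mulVec_mulVec]
    show Matrix.scalar (Fin n) (μ : F) *ᵥ _ = _
    funext i
    simp [scalar_apply, mulVec_diagonal]
  have hk : ∀ k v, (semi g' σ)^[k] v = (∏ i ∈ Finset.range k, (σ ^ i) (μ : F)) • (semi g σ)^[k] v := by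
    intro k
    induction k with
    | zero => intro v; simp
    | succ k ih =>
      intro v
      rw [Function.iterate_succ_apply', ih, hsemi, semi_smul, smul_smul, Finset.prod_range_succ',
        ← Function.iterate_succ_apply' (semi g σ)]
      congr 1
      simp only [map_prod, pow_succ', RingAut.mul_apply, pow_zero, RingAut.one_apply]
      ring
  have hprod := congrArg Units.val hμ
  rw [coe_nrm, Units.val_inv_eq_inv_val] at hprod
  obtain ⟨a, ha⟩ := speiser g' σ hr hr0 fun v => by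
    rw [hk, hTr, hprod, smul_smul, inv_mul_cancel₀ c.ne_zero, one_smul]
  have ha' : g' * mapGL σ a = a := Units.ext ha
  refine ⟨a, ?_⟩
  have e : conjP g = conjP g' := by
    rw [show g' = Matrix.GeneralLinearGroup.scalar (Fin n) μ * g from rfl, map_mul, conjP_scalar, one_mul]
  rw [e, eq_mul_inv_iff_mul_eq, mul_assoc, frobP_conjP, ← mul_assoc, ← map_mul, ha']

theorem exists_orthonormal {ι : Type} [Fintype ι] [DecidableEq ι] {σ : F ≃+* F} {f : (ι → F) → (ι → F) → F}
    (hf : Cfsg.Geo.IsUnitaryForm σ f) : ∀ (k : ℕ) (W : Submodule F (ι → F)), NondegOnH f W →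
      Module.finrank F W = k → ∃ e : Fin k → ι → F, (∀ i, e i ∈ W) ∧ ∀ i j, f (e i) (e j) = if i = j then 1 else 0 := by
  intro k
  induction k with
  | zero => exact fun W _ _ => ⟨Fin.elim0, fun i => i.elim0, fun i => i.elim0⟩
  | succ k ih =>
    intro W hW hk
    obtain ⟨r, hrW, hr⟩ := hW.exists_aniso hf (by omega)
    obtain ⟨e0, he0, h1⟩ := exists_unit_of_aniso hf hrW hr
    have := finrank_inf_unit hf he0 h1
    obtain ⟨e, he, hee⟩ := ih _ (hW.inf_unit hf he0 h1) (by omega)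
    have hz : ∀ i, f (e i) e0 = 0 := fun i => ((mem_inf_unit hf).1 (he i)).2
    refine ⟨Fin.cons e0 e, fun i => ?_, fun i j => ?_⟩
    · induction i using Fin.cases with
      | zero => simpa using he0
      | succ i => simpa using (he i).1
    · induction i using Fin.cases with
      | zero =>
        induction j using Fin.cases with
        | zero => simpa using h1
        | succ j =>
          rw [Fin.cons_zero, Fin.cons_succ, hf.herm, hz, map_zero, if_neg (Fin.succ_ne_zero j).symm]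
      | succ i =>
        induction j using Fin.cases with
        | zero => rw [Fin.cons_zero, Fin.cons_succ, hz, if_neg (Fin.succ_ne_zero i)]
        | succ j => simp [hee]

omit [Fintype F] in
theorem graphFieldShift (σ : F ≃+* F) (a : GL (Fin n) F) :
    (frobP σ * itP) * conjP a = conjP (mapGL σ (itGL a)) * (frobP σ * itP : MulAut PSLn) := by
  rw [mul_assoc, itP_conjP, ← mul_assoc, frobP_conjP, mul_assoc]

omit [Fintype F] in
theorem mapGL_transpose_inv (σ : F ≃+* F) (g : GL (Fin n) F) :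
    ((mapGL σ (itGL g) : GL (Fin n) F) : Matrix (Fin n) (Fin n) F) *
      ((g : Matrix (Fin n) (Fin n) F).map σ)ᵀ = 1 := by
  show ((((g⁻¹ : GL (Fin n) F) : Matrix (Fin n) (Fin n) F)ᵀ).map (σ : F →+* F)) *
    ((g : Matrix (Fin n) (Fin n) F).map (σ : F →+* F))ᵀ = 1
  rw [← transpose_map, ← Matrix.map_mul, ← transpose_mul, Units.mul_inv, transpose_one,
    Matrix.map_one _ (map_zero _) (map_one _)]

theorem graphField_conj (hn : 2 ≤ n) {σ : F ≃+* F} (hσ : orderOf σ = 2) (g : GL (Fin n) F)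
    (h : (conjP g * (frobP σ * itP) : MulAut PSLn) ^ 2 = 1) :
    ∃ a : GL (Fin n) F, (conjP g * (frobP σ * itP) : MulAut PSLn) =
      conjP a * (frobP σ * itP) * (conjP a)⁻¹ := by
  have hinv : ∀ a, σ (σ a) = a := fun a => by
    have := RingEquiv.congr_fun (hσ ▸ pow_orderOf_eq_one σ : σ ^ 2 = 1) a
    rw [pow_two] at this
    exact this
  have hne : σ ≠ RingEquiv.refl F := fun e => by
    rw [show σ = 1 from e, orderOf_one] at hσ; omega
  have hXX : (frobP σ * itP) * (frobP σ * itP) = (1 : MulAut PSLn) := by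
    have hc : Commute (frobP σ : MulAut PSLn) itP := frobP_itP σ
    rw [show (frobP σ * itP) * (frobP σ * itP) = frobP σ * (itP * frobP σ) * (itP : MulAut PSLn) by group,
      ← hc.eq, ← mul_assoc, mul_assoc _ itP itP, frobP_mul, itP_mul_itP, mul_one, ← frobP_one]
    congr 1
    exact RingEquiv.ext hinv
  rw [pow_two, mul_assoc (conjP g), ← mul_assoc (frobP σ * itP) (conjP g), graphFieldShift, mul_assoc (conjP _),
    hXX, mul_one, ← map_mul] at h
  obtain ⟨-, c, hc⟩ := scalar_of_conj_frob_eq_one hn (g := g * mapGL σ (itGL g)) (σ := 1)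
    (by rw [frobP_one, mul_one, h])
  have hgc : (g : Matrix (Fin n) (Fin n) F) = (c : F) • ((g : Matrix (Fin n) (Fin n) F).map σ)ᵀ := by
    have e : (g : Matrix (Fin n) (Fin n) F) * (mapGL σ (itGL g) : GL (Fin n) F) = Matrix.scalar (Fin n) (c : F) :=
      congrArg Units.val hc
    calc (g : Matrix (Fin n) (Fin n) F) = _ * ((mapGL σ (itGL g) : GL (Fin n) F) : Matrix (Fin n) (Fin n) F) *
          ((g : Matrix (Fin n) (Fin n) F).map σ)ᵀ := by rw [mul_assoc, mapGL_transpose_inv, mul_one]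
      _ = _ := by rw [e, scalar_apply, ← smul_one_eq_diagonal, smul_mul_assoc, one_mul]
  have hgc' : ∀ i j, (g : Matrix (Fin n) (Fin n) F) i j = (c : F) * σ ((g : Matrix (Fin n) (Fin n) F) j i) :=
    fun i j => congrFun (congrFun hgc i) j
  have hcc : (c : F) * σ c = 1 := by
    obtain ⟨i, j, hij⟩ : ∃ i j, (g : Matrix (Fin n) (Fin n) F) i j ≠ 0 := by
      by_contra hh
      push Not at hh
      exact Cfsg.Lib.Classical.mulVec_ne_zero g (x := ev (⟨0, by omega⟩ : Fin n)) (by simp [ev])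
        (by funext k; simp [mulVec, dotProduct, hh])
    have e := hgc' i j
    rw [hgc' j i, map_mul, hinv, ← mul_assoc] at e
    exact mul_right_cancel₀ hij (e.symm.trans (one_mul _).symm)
  obtain ⟨μ, hμ⟩ := hilbert90 σ hσ two_pos (x := c) (Units.ext (by
    rw [coe_nrm, Finset.prod_range_succ, Finset.prod_range_one, pow_zero, pow_one]
    exact hcc))
  set H : Matrix (Fin n) (Fin n) F := (μ : F)⁻¹ • (g : Matrix (Fin n) (Fin n) F)
  have hH : ∀ i j, H i j = σ (H j i) := fun i j => by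
    show (μ : F)⁻¹ * _ = σ ((μ : F)⁻¹ * _)
    rw [map_mul, map_inv₀, hgc' i j]
    have hμ0 : σ (μ : F) ≠ 0 := by simp
    field_simp
    linear_combination σ ((g : Matrix (Fin n) (Fin n) F) j i) * hμ
  let f : (Fin n → F) → (Fin n → F) → F := fun x y => x ⬝ᵥ H *ᵥ fun k => σ (y k)
  have hHne : ∀ v : Fin n → F, v ≠ 0 → H *ᵥ v ≠ 0 := fun v hv e => by
    rw [show H = (μ : F)⁻¹ • (g : Matrix (Fin n) (Fin n) F) from rfl, smul_mulVec] at e
    exact Cfsg.Lib.Classical.mulVec_ne_zero g hv ((smul_eq_zero.1 e).resolve_left (by simp))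
  have hherm : ∀ v w, f v w = σ (f w v) := by
    intro v w
    show (∑ i, v i * ∑ j, H i j * σ (w j)) = σ (∑ i, w i * ∑ j, H i j * σ (v j))
    simp only [map_sum, map_mul, Finset.mul_sum, hinv]
    rw [Finset.sum_comm]
    refine Finset.sum_congr rfl fun i _ => Finset.sum_congr rfl fun j _ => ?_
    rw [hH j i]
    ring
  have hf : Cfsg.Geo.IsUnitaryForm σ f := by
    refine ⟨hne, hinv, fun x y v => add_dotProduct _ _ _, fun a x v => smul_dotProduct _ _ _, hherm, fun w hw => ?_⟩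
    have hex : ∃ x, f x w ≠ 0 := by
      by_contra hh
      push Not at hh
      refine hHne (fun k => σ (w k)) (fun e => hw (funext fun k => by simpa using congrFun e k)) ?_
      exact dotProduct_eq_zero_iff.1 fun x => by rw [dotProduct_comm]; exact hh x
    obtain ⟨x, hx⟩ := hex
    exact ⟨⟨x, hx⟩, ⟨x, by rw [hherm]; simpa using hx⟩⟩
  obtain ⟨e, -, hee⟩ := exists_orthonormal hf n ⊤ (nondegOnH_top hf)
    (by rw [finrank_top, Module.finrank_fintype_fun_eq_card, Fintype.card_fin])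
  let E : Matrix (Fin n) (Fin n) F := Matrix.of fun i k => e i k
  have hE : E * H * (E.map σ)ᵀ = 1 := by
    ext i j
    rw [Matrix.one_apply, ← hee i j]
    show ((E * H) i) ⬝ᵥ (fun k => σ (e j k)) = e i ⬝ᵥ H *ᵥ fun k => σ (e j k)
    rw [dotProduct_mulVec]
    rfl
  have hEdet : E.det ≠ 0 := fun h0 => by
    have := congrArg Matrix.det hE
    rw [det_mul, det_mul, h0, zero_mul, zero_mul, det_one] at this
    exact zero_ne_one this
  let EG : GL (Fin n) F := Matrix.GeneralLinearGroup.mkOfDetNeZero E hEdet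
  refine ⟨EG⁻¹, ?_⟩
  have h2 : H * (E.map σ)ᵀ = ((EG⁻¹ : GL (Fin n) F) : Matrix (Fin n) (Fin n) F) := by
    rw [← one_mul (H * (E.map σ)ᵀ), ← Units.inv_mul EG, mul_assoc]
    show _ * (E * (H * (E.map σ)ᵀ)) = _
    rw [← mul_assoc E, hE, mul_one]
  have e1 : g * mapGL σ (itGL EG⁻¹) = Matrix.GeneralLinearGroup.scalar (Fin n) μ * EG⁻¹ := by
    refine Units.ext ?_
    rw [Units.val_mul, Units.val_mul, show ((mapGL σ (itGL EG⁻¹) : GL (Fin n) F) : Matrix (Fin n) (Fin n) F) =
      (E.map σ)ᵀ from by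
        show ((((EG⁻¹)⁻¹ : GL (Fin n) F) : Matrix (Fin n) (Fin n) F)ᵀ).map (σ : F →+* F) = _
        rw [inv_inv, transpose_map]; rfl]
    show _ = Matrix.scalar (Fin n) (μ : F) * _
    rw [scalar_apply, ← smul_one_eq_diagonal, smul_mul_assoc, one_mul, ← h2, ← smul_mul_assoc]
    congr 1
    rw [show H = (μ : F)⁻¹ • (g : Matrix (Fin n) (Fin n) F) from rfl, smul_smul, mul_inv_cancel₀ μ.ne_zero, one_smul]
  rw [eq_mul_inv_iff_mul_eq, mul_assoc, graphFieldShift, ← mul_assoc, ← map_mul, e1, map_mul, conjP_scalar,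
    one_mul]

/-- **Elements of prime order in a coset of a field or graph-field automorphism.** -/
theorem order_iff_conj (hn : 2 ≤ n) {x δ : MulAut PSLn} (hx : IsFieldAutClassPSL x ∨ IsGraphFieldAutClassPSL x)
    {r : ℕ} (hr : r.Prime) (hxr : orderOf x = r) (hδ : δ ∈ inndiagPSL n F) :
    orderOf (δ * x) = r ↔ IsConjUnder (inndiagPSL n F) x (δ * x) := by
  constructor
  · intro h
    obtain ⟨d, rfl⟩ := mem_inndiag_iff.1 hδ
    obtain ⟨X, a, hxX, hX⟩ : ∃ (X : MulAut PSLn) (a : GL (Fin n) F), x = conjP a * X * (conjP a)⁻¹ ∧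
        ∀ g, (conjP g * X) ^ r = 1 → ∃ b : GL (Fin n) F, conjP g * X = conjP b * X * (conjP b)⁻¹ := by
      rcases hx with hx | hx
      · obtain ⟨σ, a, -, ha⟩ := exists_standard_field hn hx
        refine ⟨_, a, ha, fun g hg => field_conj hn ?_ g hg⟩
        rw [← orderOf_frobP hn σ, ← hxr, ha]
        exact (orderOf_injective (MulAut.conj (conjP a)).toMonoidHom (MulAut.conj (conjP a)).injective _).symm
      · obtain ⟨h3, σ, a, hσ, ha⟩ := exists_standard_graphField hx
        have ho : orderOf (frobP σ * itP : MulAut PSLn) = r := by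
          rw [← hxr, ha]
          exact (orderOf_injective (MulAut.conj (conjP a)).toMonoidHom (MulAut.conj (conjP a)).injective _).symm
        obtain ⟨rfl, hσ2⟩ := graphField_order h3 hr ho hσ
        exact ⟨_, a, ha, fun g hg => graphField_conj hn hσ2 g hg⟩
    have hg : (conjP (a⁻¹ * d * a) * X) ^ r = 1 := by
      have e : conjP (a⁻¹ * d * a) * X = (conjP a)⁻¹ * (conjP d * x) * ((conjP a)⁻¹)⁻¹ := by
        rw [hxX, map_mul, map_mul, map_inv]; group
      rw [e, conj_pow, ← h, pow_orderOf_eq_one, mul_one, mul_inv_cancel]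
    obtain ⟨b, hb⟩ := hX _ hg
    refine ⟨conjP (a * b * a⁻¹), mem_inndiag_iff.2 ⟨_, rfl⟩, ?_⟩
    calc conjP d * x = conjP a * (conjP (a⁻¹ * d * a) * X) * (conjP a)⁻¹ := by
          rw [hxX, map_mul, map_mul, map_inv]; group
      _ = _ := by rw [hb, hxX, map_mul, map_mul, map_inv]; group
  · rintro ⟨k, -, hk⟩
    rw [hk]
    exact (orderOf_injective (MulAut.conj k).toMonoidHom (MulAut.conj k).injective x).trans hxr

end Cfsg.Lib.Classical.PSLAut
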