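/-
Counting the classes into which a class splits, and indices of subgroups of cyclic groups.
-/
import Mathlib
import Cfsg.Prelude.Def_LieTypeDatum

set_option autoImplicit false

open scoped Classical

namespace Cfsg.Lib.Classical.PSLAut

/-- Splitting of a class through an invariant. -/
theorem splitClassCount_eq {X A Q : Type*} [Group X] [Group A] [Group Q] (π : A →* X) (K : Subgroup X) (x : X)
    (χ : A →* Q) (hsurj : Function.Surjective χ) (hC : ∀ a, π a * x = x * π a → χ a = 1)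
    (hK : ∀ a, π a ∈ K → χ a = 1) (hKH : K ≤ π.range)
    (hnorm : ∀ a, ∀ k ∈ K, π a * k * (π a)⁻¹ ∈ K)
    (hsplit : ∀ a, χ a = 1 → ∃ b c, π b ∈ K ∧ π c * x = x * π c ∧ π a = π b * π c) :
    splitClassCount π.range K x = Nat.card Q := by
  let S := {y : X // IsConjUnder π.range x y}
  have hex : ∀ y : S, ∃ a : A, y.1 = π a * x * (π a)⁻¹ := fun y => by
    obtain ⟨h, ⟨a, rfl⟩, e⟩ := y.2
    exact ⟨a, e⟩
  choose rep hrep using hex
  have hsame : ∀ a a' : A, π a * x * (π a)⁻¹ = π a' * x * (π a')⁻¹ → χ a = χ a' := by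
    intro a a' e
    have h1 : π (a⁻¹ * a') * x = x * π (a⁻¹ * a') := by
      rw [map_mul, map_inv]
      calc (π a)⁻¹ * π a' * x = (π a)⁻¹ * (π a' * x * (π a')⁻¹) * π a' := by group
        _ = (π a)⁻¹ * (π a * x * (π a)⁻¹) * π a' := by rw [e]
        _ = x * ((π a)⁻¹ * π a') := by group
    have h2 := hC _ h1
    rwa [map_mul, map_inv, inv_mul_eq_one] at h2
  have hwd : ∀ y z : S, IsConjUnder K y.1 z.1 → χ (rep y) = χ (rep z) := by
    rintro y z ⟨k, hk, e⟩
    obtain ⟨b, rfl⟩ := hKH hk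
    rw [hrep y, hrep z] at e
    have h1 : π (rep z) * x * (π (rep z))⁻¹ = π (b * rep y) * x * (π (b * rep y))⁻¹ := by
      rw [e, map_mul]; group
    rw [hsame _ _ h1, map_mul, hK b hk, one_mul]
  refine Nat.card_eq_of_bijective (Quot.lift (fun y => χ (rep y)) hwd) ⟨?_, fun q => ?_⟩
  · intro u v e
    induction u using Quot.ind with
    | mk y =>
    induction v using Quot.ind with
    | mk z =>
    apply Quot.sound
    change χ (rep y) = χ (rep z) at e
    obtain ⟨b, c, hb, hc, hbc⟩ := hsplit ((rep y)⁻¹ * rep z) (by rw [map_mul, map_inv, e, inv_mul_cancel])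
    refine ⟨π (rep y) * π b * (π (rep y))⁻¹, hnorm _ _ hb, ?_⟩
    have hz : π (rep z) = π (rep y) * π b * π c := by
      rw [mul_assoc, ← hbc, map_mul, map_inv]; group
    rw [hrep z, hrep y, hz]
    calc π (rep y) * π b * π c * x * (π (rep y) * π b * π c)⁻¹
        = π (rep y) * π b * (π c * x) * (π c)⁻¹ * (π b)⁻¹ * (π (rep y))⁻¹ := by group
      _ = π (rep y) * π b * (x * π c) * (π c)⁻¹ * (π b)⁻¹ * (π (rep y))⁻¹ := by rw [hc]
      _ = _ := by group
  · obtain ⟨a, rfl⟩ := hsurj q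
    let y : S := ⟨π a * x * (π a)⁻¹, π a, ⟨a, rfl⟩, rfl⟩
    exact ⟨Quot.mk _ y, hsame _ _ (hrep y).symm⟩

/-- Index of powers joined with a subgroup in a cyclic group. -/
theorem index_pow_sup {G : Type*} [CommGroup G] [IsCyclic G] [Finite G] (n : ℕ) (K : Subgroup G) :
    ((powMonoidHom n : G →* G).range ⊔ K).index = Nat.gcd n K.index := by
  have hKeq : K = (powMonoidHom K.index : G →* G).range := by
    refine (Subgroup.eq_of_le_of_card_ge ?_ ?_).symm
    · rintro _ ⟨x, rfl⟩
      exact Subgroup.pow_index_mem K x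
    · have h1 := (powMonoidHom K.index : G →* G).range.card_mul_index
      have h2 := K.card_mul_index
      rw [IsCyclic.index_powMonoidHom_range, Nat.gcd_eq_right (h2 ▸ dvd_mul_left _ _)] at h1
      exact le_of_eq (Nat.eq_of_mul_eq_mul_right (Nat.pos_of_ne_zero Subgroup.index_ne_zero_of_finite)
        (h2.trans h1.symm))
  have hsup : (powMonoidHom n : G →* G).range ⊔ K = (powMonoidHom (Nat.gcd n K.index) : G →* G).range := by
    refine le_antisymm (sup_le ?_ ?_) ?_
    · rintro _ ⟨x, rfl⟩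
      obtain ⟨c, hc⟩ := Nat.gcd_dvd_left n K.index
      exact ⟨x ^ c, by simp only [powMonoidHom_apply]; rw [← pow_mul, mul_comm, ← hc]⟩
    · conv_lhs => rw [hKeq]
      rintro _ ⟨x, rfl⟩
      obtain ⟨c, hc⟩ := Nat.gcd_dvd_right n K.index
      exact ⟨x ^ c, by simp only [powMonoidHom_apply]; rw [← pow_mul, mul_comm, ← hc]⟩
    · rintro _ ⟨x, rfl⟩
      rw [powMonoidHom_apply, ← zpow_natCast x, Nat.gcd_eq_gcd_ab, _root_.zpow_add, _root_.zpow_mul, _root_.zpow_mul,
        zpow_natCast, zpow_natCast]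
      exact mul_mem (Subgroup.mem_sup_left (Subgroup.zpow_mem _
          (show x ^ n ∈ (powMonoidHom n : G →* G).range from ⟨x, rfl⟩) _))
        (Subgroup.mem_sup_right (Subgroup.zpow_mem _ (Subgroup.pow_index_mem K x) _))
  rw [hsup, IsCyclic.index_powMonoidHom_range]
  exact Nat.gcd_eq_right ((Nat.gcd_dvd_right n _).trans (K.card_mul_index ▸ dvd_mul_left _ _))

end Cfsg.Lib.Classical.PSLAut
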