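/-
Centralisers of field and graph-field automorphisms in the inner-diagonal group, and class splitting.
-/
import Mathlib
import Cfsg.Agent.Lib.Classical.PSLAut.Conj
import Cfsg.Agent.Lib.Classical.PSLAut.Count
import Cfsg.Agent.Lib.Classical.UnitaryStd

set_option autoImplicit false

open scoped Classical

namespace Cfsg.Lib.Classical.PSLAut

open Matrix
open Cfsg.Lib.Classical.FinField (nrm coe_nrm nrm_surjective hilbert90 fixed mem_fixed fixed_card_eq card_fixed)
open scoped MatrixGroups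

variable {n : ℕ} {F : Type*} [Field F]

local notation "PSLn" => Matrix.ProjectiveSpecialLinearGroup (Fin n) F
local notation "sc" => Matrix.GeneralLinearGroup.scalar (Fin n)

theorem conj_mk_eq (s : Matrix.SpecialLinearGroup (Fin n) F) :
    MulAut.conj (QuotientGroup.mk s : PSLn) = conjP (Matrix.SpecialLinearGroup.toGL s) := by
  refine MulEquiv.ext fun z => ?_
  induction z using QuotientGroup.induction_on with
  | H t =>
    rw [conjP_mk, MulAut.conj_apply, ← QuotientGroup.mk_inv, ← QuotientGroup.mk_mul, ← QuotientGroup.mk_mul]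
    refine congrArg QuotientGroup.mk (Subtype.ext ?_)
    rw [coe_conjSLHom, Matrix.SpecialLinearGroup.coe_mul, Matrix.SpecialLinearGroup.coe_mul, ← map_inv]
    rfl

theorem det_scalar_gl (c : Fˣ) : Matrix.GeneralLinearGroup.det (sc c) = c ^ n := by
  refine Units.ext ?_
  rw [Matrix.GeneralLinearGroup.val_det_apply]
  show (Matrix.scalar (Fin n) (c : F)).det = _
  simp

theorem exists_det_diag (hn : 1 ≤ n) (w : Fˣ) : ∃ c : GL (Fin n) F, Matrix.GeneralLinearGroup.det c = w ∧
    (c : Matrix (Fin n) (Fin n) F) = Matrix.diagonal (Function.update 1 ⟨0, hn⟩ (w : F)) := by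
  refine ⟨Matrix.GeneralLinearGroup.mkOfDetNeZero (Matrix.diagonal (Function.update 1 ⟨0, hn⟩ (w : F))) ?_,
    Units.ext ?_, rfl⟩
  · simp [Matrix.det_diagonal, Finset.prod_update_of_mem]
  · rw [Matrix.GeneralLinearGroup.val_det_apply]
    show (Matrix.diagonal _).det = _
    simp [Matrix.det_diagonal, Finset.prod_update_of_mem]

theorem split_count [Fintype F] (hn : 2 ≤ n) {x X : MulAut PSLn} {a0 : GL (Fin n) F}
    (hx : x = conjP a0 * X * (conjP a0)⁻¹) (M0 : Subgroup Fˣ)
    (hC : ∀ a : GL (Fin n) F, conjP a * X = X * conjP a →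
      Matrix.GeneralLinearGroup.det a ∈ (powMonoidHom n : Fˣ →* Fˣ).range ⊔ M0)
    (hex : ∀ w ∈ M0, ∃ c : GL (Fin n) F, conjP c * X = X * conjP c ∧ Matrix.GeneralLinearGroup.det c = w) :
    splitClassCount (inndiagPSL n F) (Inn PSLn) x = Nat.gcd n M0.index := by
  set M := (powMonoidHom n : Fˣ →* Fˣ).range ⊔ M0
  have hcomm : ∀ a, conjP a * x = x * conjP a ↔ conjP (a0⁻¹ * a * a0) * X = X * conjP (a0⁻¹ * a * a0) := by
    intro a
    rw [hx, map_mul, map_mul, map_inv]
    constructor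
    · intro h
      calc (conjP a0)⁻¹ * conjP a * conjP a0 * X
          = (conjP a0)⁻¹ * (conjP a * (conjP a0 * X * (conjP a0)⁻¹)) * conjP a0 := by group
        _ = (conjP a0)⁻¹ * ((conjP a0 * X * (conjP a0)⁻¹) * conjP a) * conjP a0 := by rw [h]
        _ = _ := by group
    · intro h
      calc conjP a * (conjP a0 * X * (conjP a0)⁻¹)
          = conjP a0 * ((conjP a0)⁻¹ * conjP a * conjP a0 * X) * (conjP a0)⁻¹ := by group
        _ = conjP a0 * (X * ((conjP a0)⁻¹ * conjP a * conjP a0)) * (conjP a0)⁻¹ := by rw [h]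
        _ = _ := by group
  have hdet : ∀ a : GL (Fin n) F, Matrix.GeneralLinearGroup.det (a0⁻¹ * a * a0) = Matrix.GeneralLinearGroup.det a := by
    intro a
    rw [map_mul, map_mul, map_inv, mul_right_comm, inv_mul_cancel, one_mul]
  have hinn : ∀ a, conjP a ∈ Inn PSLn ↔ ∃ u : Fˣ, Matrix.GeneralLinearGroup.det a = u ^ n := by
    intro a
    constructor
    · rintro ⟨k, hk⟩
      obtain ⟨s, rfl⟩ := QuotientGroup.mk_surjective k
      rw [conj_mk_eq] at hk
      obtain ⟨-, c, hc⟩ := scalar_of_conj_frob_eq_one hn (g := (Matrix.SpecialLinearGroup.toGL s)⁻¹ * a) (σ := 1)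
        (by rw [frobP_one, mul_one, map_mul, map_inv, hk, inv_mul_cancel])
      refine ⟨c, ?_⟩
      rw [inv_mul_eq_iff_eq_mul] at hc
      rw [hc, map_mul, det_scalar_gl, show Matrix.GeneralLinearGroup.det (Matrix.SpecialLinearGroup.toGL s) = 1
        from Units.ext (by simp), one_mul]
    · rintro ⟨u, hu⟩
      have hd : Matrix.GeneralLinearGroup.det (sc u⁻¹ * a) = 1 := by
        rw [map_mul, det_scalar_gl, hu, inv_pow, inv_mul_cancel]
      obtain ⟨s, hs⟩ : ∃ s : Matrix.SpecialLinearGroup (Fin n) F,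
          Matrix.SpecialLinearGroup.toGL s = sc u⁻¹ * a :=
        ⟨⟨(sc u⁻¹ * a : GL (Fin n) F), by
          rw [← Matrix.GeneralLinearGroup.val_det_apply, hd, Units.val_one]⟩, Units.ext rfl⟩
      refine ⟨QuotientGroup.mk s, ?_⟩
      rw [conj_mk_eq, hs, map_mul, conjP_scalar, one_mul]
  rw [inndiag_eq, ← index_pow_sup, Subgroup.index]
  refine splitClassCount_eq (Q := Fˣ ⧸ M) conjP (Inn PSLn) x
    ((QuotientGroup.mk' M).comp Matrix.GeneralLinearGroup.det) ?_ ?_ ?_ ?_ ?_ ?_
  · intro q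
    obtain ⟨w, rfl⟩ := QuotientGroup.mk_surjective q
    obtain ⟨c, hc, -⟩ := exists_det_diag (n := n) (by omega) w
    exact ⟨c, by rw [MonoidHom.comp_apply, hc, QuotientGroup.mk'_apply]⟩
  · intro a ha
    rw [MonoidHom.comp_apply, QuotientGroup.mk'_apply, QuotientGroup.eq_one_iff, ← hdet]
    exact hC _ ((hcomm a).1 ha)
  · intro a ha
    obtain ⟨u, hu⟩ := (hinn a).1 ha
    rw [MonoidHom.comp_apply, QuotientGroup.mk'_apply, QuotientGroup.eq_one_iff, hu]
    exact Subgroup.mem_sup_left ⟨u, rfl⟩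
  · rintro _ ⟨k, rfl⟩
    obtain ⟨s, rfl⟩ := QuotientGroup.mk_surjective k
    exact ⟨_, (conj_mk_eq s).symm⟩
  · rintro a _ ⟨k, rfl⟩
    exact ⟨conjP a k, MulEquiv.ext fun z => by simp [MulAut.conj_apply, MulAut.mul_apply]⟩
  · intro a ha
    rw [MonoidHom.comp_apply, QuotientGroup.mk'_apply, QuotientGroup.eq_one_iff] at ha
    obtain ⟨_, ⟨u, rfl⟩, w, hw, e⟩ := Subgroup.mem_sup.1 ha
    obtain ⟨c, hcX, hcd⟩ := hex w hw
    refine ⟨a * (a0 * c * a0⁻¹)⁻¹, a0 * c * a0⁻¹, (hinn _).2 ⟨u, ?_⟩, (hcomm _).2 ?_, ?_⟩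
    · rw [map_mul, map_inv, map_mul, map_mul, map_inv, hcd, ← e]
      simp
    · rw [show a0⁻¹ * (a0 * c * a0⁻¹) * a0 = c by group]
      exact hcX
    · rw [← map_mul, inv_mul_cancel_right]

theorem centralizer_iso {H : Type*} [Group H] {x X : MulAut PSLn} {a0 : GL (Fin n) F}
    (hx : x = conjP a0 * X * (conjP a0)⁻¹) (Φ : H →* MulAut PSLn)
    (hmem : ∀ h, Φ h ∈ inndiagPSL n F ∧ Φ h * X = X * Φ h)
    (hsurj : ∀ g : GL (Fin n) F, conjP g * X = X * conjP g → ∃ h, Φ h = conjP g) :
    Nonempty (↥(inndiagPSL n F ⊓ Subgroup.centralizer {x}) ≃* H ⧸ Φ.ker) := by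
  let Ψ : H →* MulAut PSLn := (MulAut.conj (conjP a0)).toMonoidHom.comp Φ
  have hker : Ψ.ker = Φ.ker := by
    ext h
    rw [MonoidHom.mem_ker, MonoidHom.mem_ker]
    exact map_eq_one_iff _ (MulAut.conj (conjP a0)).injective
  have hrange : Ψ.range = inndiagPSL n F ⊓ Subgroup.centralizer {x} := by
    ext y
    constructor
    · rintro ⟨h, rfl⟩
      obtain ⟨hG, hX⟩ := hmem h
      obtain ⟨g, hg⟩ := mem_inndiag_iff.1 hG
      refine ⟨mem_inndiag_iff.2 ⟨a0 * g * a0⁻¹, ?_⟩, Subgroup.mem_centralizer_singleton_iff.2 ?_⟩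
      · show conjP a0 * Φ h * (conjP a0)⁻¹ = _
        rw [hg, map_mul, map_mul, map_inv]
      · show conjP a0 * Φ h * (conjP a0)⁻¹ * x = x * (conjP a0 * Φ h * (conjP a0)⁻¹)
        rw [hx]
        calc conjP a0 * Φ h * (conjP a0)⁻¹ * (conjP a0 * X * (conjP a0)⁻¹)
            = conjP a0 * (Φ h * X) * (conjP a0)⁻¹ := by group
          _ = conjP a0 * (X * Φ h) * (conjP a0)⁻¹ := by rw [hX]
          _ = _ := by group
    · rintro ⟨hG, hC⟩
      obtain ⟨g, rfl⟩ := mem_inndiag_iff.1 hG
      have hC' := Subgroup.mem_centralizer_singleton_iff.1 hC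
      rw [hx] at hC'
      obtain ⟨h, hh⟩ := hsurj (a0⁻¹ * g * a0) (by
        rw [map_mul, map_mul, map_inv]
        calc (conjP a0)⁻¹ * conjP g * conjP a0 * X
            = (conjP a0)⁻¹ * (conjP g * (conjP a0 * X * (conjP a0)⁻¹)) * conjP a0 := by group
          _ = (conjP a0)⁻¹ * ((conjP a0 * X * (conjP a0)⁻¹) * conjP g) * conjP a0 := by rw [hC']
          _ = _ := by group)
      refine ⟨h, ?_⟩
      show conjP a0 * Φ h * (conjP a0)⁻¹ = _
      rw [hh, map_mul, map_mul, map_inv]; group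
  exact ⟨(MulEquiv.subgroupCongr hrange.symm).trans
    ((QuotientGroup.quotientKerEquivRange Ψ).symm.trans (QuotientGroup.quotientMulEquivOfEq hker))⟩

/-- The fixed units. -/
def fixedUnits (σ : F ≃+* F) : Subgroup Fˣ where
  carrier := {u | σ (u : F) = u}
  one_mem' := by simp
  mul_mem' := fun {a b} ha hb => by
    show σ ((a * b : Fˣ) : F) = _
    rw [Units.val_mul, map_mul, ha, hb]
  inv_mem' := fun {a} ha => by
    show σ ((a⁻¹ : Fˣ) : F) = _
    rw [Units.val_inv_eq_inv_val, map_inv₀, ha]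

theorem card_fixedUnits [Fintype F] (σ : F ≃+* F) : Nat.card (fixedUnits σ) = Nat.card (fixed σ) - 1 := by
  rw [← Nat.card_units]
  exact Nat.card_congr
    { toFun := fun u => Units.mk0 ⟨(u.1 : F), mem_fixed.2 u.2⟩ fun e => u.1.ne_zero (congrArg Subtype.val e)
      invFun := fun v => ⟨Units.mk0 ((v : fixed σ) : F) fun e => v.ne_zero (Subtype.ext e), mem_fixed.1 (v : fixed σ).2⟩
      left_inv := fun u => Subtype.ext (Units.ext rfl)
      right_inv := fun v => Units.ext rfl }

theorem field_commute (hn : 2 ≤ n) [Fintype F] {σ : F ≃+* F} {r : ℕ} (hr : orderOf σ = r) {g : GL (Fin n) F}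
    (h : (conjP g * frobP σ : MulAut PSLn) = frobP σ * conjP g) :
    ∃ μ : Fˣ, ∀ i j, σ ((μ : F) * (g : Matrix (Fin n) (Fin n) F) i j) = (μ : F) * (g : Matrix (Fin n) (Fin n) F) i j := by
  rw [frobP_conjP, mul_left_inj] at h
  obtain ⟨-, c, hc⟩ := scalar_of_conj_frob_eq_one hn (g := g⁻¹ * mapGL σ g) (σ := 1)
    (by rw [frobP_one, mul_one, map_mul, map_inv, ← h, inv_mul_cancel])
  rw [inv_mul_eq_iff_eq_mul] at hc
  have hσg : ∀ i j, σ ((g : Matrix (Fin n) (Fin n) F) i j) = (g : Matrix (Fin n) (Fin n) F) i j * c := by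
    intro i j
    have e := congrArg (fun m : GL (Fin n) F => (m : Matrix (Fin n) (Fin n) F) i j) hc
    simpa [Matrix.GeneralLinearGroup.scalar] using e
  have hit : ∀ k i j, (σ ^ k) ((g : Matrix (Fin n) (Fin n) F) i j) =
      (g : Matrix (Fin n) (Fin n) F) i j * ∏ l ∈ Finset.range k, (σ ^ l) (c : F) := by
    intro k
    induction k with
    | zero => intro i j; simp
    | succ k ih =>
      intro i j
      rw [pow_succ', RingAut.mul_apply, ih, map_mul, hσg, map_prod, Finset.prod_range_succ']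
      simp only [pow_succ', RingAut.mul_apply, pow_zero, RingAut.one_apply]
      ring
  have hN : nrm σ r c = 1 := by
    obtain ⟨i, j, hij⟩ : ∃ i j, (g : Matrix (Fin n) (Fin n) F) i j ≠ 0 := by
      by_contra hh
      push Not at hh
      exact Cfsg.Lib.Classical.mulVec_ne_zero g (x := ev (⟨0, by omega⟩ : Fin n)) (by simp [ev])
        (by funext k; simp [mulVec, dotProduct, hh])
    have e := hit r i j
    rw [← hr, pow_orderOf_eq_one, RingAut.one_apply, hr] at e
    refine Units.ext ?_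
    rw [coe_nrm, Units.val_one]
    exact mul_left_cancel₀ hij (e.symm.trans (mul_one _).symm)
  obtain ⟨μ, hμ⟩ := hilbert90 σ hr (hr ▸ orderOf_pos σ) hN
  refine ⟨μ, fun i j => ?_⟩
  rw [map_mul, hσg]
  linear_combination (g : Matrix (Fin n) (Fin n) F) i j * hμ

theorem field_main [Fintype F] {p f : ℕ} [Fact p.Prime] (hF : Fintype.card F = p ^ f) (hn : 2 ≤ n)
    {x : MulAut PSLn} (hx : IsFieldAutClassPSL x) {r : ℕ} (hxr : orderOf x = r) {F₀ : Type*} [Field F₀]
    [Fintype F₀] (hF₀ : Fintype.card F₀ = p ^ (f / r)) :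
    r ∣ f ∧ Nonempty (↥(inndiagPSL n F ⊓ Subgroup.centralizer {x}) ≃* Matrix.ProjGenLinGroup (Fin n) F₀) ∧
      splitClassCount (inndiagPSL n F) (Inn PSLn) x = Nat.gcd n ((p ^ f - 1) / (p ^ (f / r) - 1)) := by
  obtain ⟨σ, a0, -, hx'⟩ := exists_standard_field hn hx
  have hσr : orderOf σ = r := by
    rw [← orderOf_frobP hn σ, ← hxr, hx']
    exact (orderOf_injective (MulAut.conj (conjP a0)).toMonoidHom (MulAut.conj (conjP a0)).injective _).symm
  obtain ⟨hdvd, hcard⟩ := fixed_card_eq hF σ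
  rw [hσr] at hdvd hcard
  let _ : Fintype (fixed σ) := Fintype.ofFinite _
  let e : F₀ ≃+* fixed σ := FiniteField.ringEquivOfCardEq
    (by rw [hF₀, ← hcard, Nat.card_eq_fintype_card])
  let ι : F₀ →+* F := (fixed σ).subtype.comp (e : F₀ →+* fixed σ)
  have hι : Function.Injective ι := Subtype.val_injective.comp e.injective
  have hfixι : ∀ z, σ (ι z) = ι z := fun z => mem_fixed.1 (e z).2
  have hmap : ∀ g0 : GL (Fin n) F₀, mapGL σ (Matrix.GeneralLinearGroup.map ι g0) = Matrix.GeneralLinearGroup.map ι g0 :=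
    fun g0 => Units.ext (Matrix.ext fun i j => hfixι _)
  have hsurj : ∀ g : GL (Fin n) F, (conjP g * frobP σ : MulAut PSLn) = frobP σ * conjP g →
      ∃ (μ : Fˣ) (g0 : GL (Fin n) F₀), Matrix.GeneralLinearGroup.map ι g0 = sc μ * g := by
    intro g hg
    obtain ⟨μ, hμ⟩ := field_commute hn hσr hg
    let M0 : Matrix (Fin n) (Fin n) F₀ :=
      Matrix.of fun i j => e.symm ⟨(μ : F) * (g : Matrix (Fin n) (Fin n) F) i j, mem_fixed.2 (hμ i j)⟩
    have hM : M0.map ι = ((sc μ * g : GL (Fin n) F) : Matrix (Fin n) (Fin n) F) := by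
      ext i j
      show ι _ = (Matrix.scalar (Fin n) (μ : F) * (g : Matrix (Fin n) (Fin n) F)) i j
      rw [scalar_apply, diagonal_mul]
      show ((e (e.symm _) : fixed σ) : F) = _
      rw [RingEquiv.apply_symm_apply]
    have hdet : M0.det ≠ 0 := fun h0 => by
      have := congrArg Matrix.det hM
      rw [← RingHom.mapMatrix_apply, ← RingHom.map_det, h0, map_zero] at this
      exact (Matrix.GeneralLinearGroup.det (sc μ * g)).ne_zero
        (by rw [Matrix.GeneralLinearGroup.val_det_apply]; exact this.symm)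
    exact ⟨μ, Matrix.GeneralLinearGroup.mkOfDetNeZero M0 hdet, Units.ext hM⟩
  let Φ : GL (Fin n) F₀ →* MulAut PSLn := conjP.comp (Matrix.GeneralLinearGroup.map ι)
  have hΦ : ∀ g0, Φ g0 * frobP σ = frobP σ * Φ g0 := fun g0 => by
    show conjP _ * _ = _ * conjP _
    rw [frobP_conjP, hmap]
  have hker : Φ.ker = Subgroup.center (GL (Fin n) F₀) := by
    ext g0
    rw [MonoidHom.mem_ker, Matrix.GeneralLinearGroup.center_eq_range_scalar, MonoidHom.mem_range]
    constructor
    · intro h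
      obtain ⟨-, c, hc⟩ := scalar_of_conj_frob_eq_one hn (g := Matrix.GeneralLinearGroup.map ι g0) (σ := 1)
        (by rw [frobP_one, mul_one]; exact h)
      have hc' : ∀ i j, ι ((g0 : Matrix (Fin n) (Fin n) F₀) i j) = if i = j then (c : F) else 0 := fun i j => by
        have e := congrArg (fun m : GL (Fin n) F => (m : Matrix (Fin n) (Fin n) F) i j) hc
        simpa [Matrix.GeneralLinearGroup.scalar, Matrix.diagonal_apply] using e
      let i0 : Fin n := ⟨0, by omega⟩
      have hne : (g0 : Matrix (Fin n) (Fin n) F₀) i0 i0 ≠ 0 := fun e0 => c.ne_zero (by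
        have := hc' i0 i0
        rwa [e0, map_zero, if_pos rfl, eq_comm] at this)
      refine ⟨Units.mk0 _ hne, Units.ext (Matrix.ext fun i j => hι ?_)⟩
      show ι ((Matrix.scalar (Fin n) ((g0 : Matrix (Fin n) (Fin n) F₀) i0 i0)) i j) = _
      rw [scalar_apply, Matrix.diagonal_apply, hc' i j]
      split_ifs <;> simp [hc' i0 i0]
    · rintro ⟨c, rfl⟩
      show conjP _ = 1
      rw [show Matrix.GeneralLinearGroup.map ι (Matrix.GeneralLinearGroup.scalar (Fin n) c) =
        sc (Units.map (ι : F₀ →* F) c) from Units.ext (by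
          show (Matrix.scalar (Fin n) (c : F₀)).map ι = Matrix.scalar (Fin n) (ι c)
          rw [scalar_apply, scalar_apply, diagonal_map (map_zero ι)]), conjP_scalar]
  refine ⟨hdvd, ?_, ?_⟩
  · obtain ⟨E⟩ := centralizer_iso hx' Φ (fun g0 => ⟨mem_inndiag_iff.2 ⟨_, rfl⟩, hΦ g0⟩) (fun g hg => by
      obtain ⟨μ, g0, h0⟩ := hsurj g hg
      exact ⟨g0, by show conjP _ = _; rw [h0, map_mul, conjP_scalar, one_mul]⟩)
    exact ⟨E.trans (QuotientGroup.quotientMulEquivOfEq hker)⟩
  · rw [split_count hn hx' (fixedUnits σ) (fun g hg => ?_) (fun w hw => ?_)]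
    · congr 1
      have h1 := (fixedUnits σ).card_mul_index
      rw [card_fixedUnits, hcard, Nat.card_units, Nat.card_eq_fintype_card, hF] at h1
      have h2 : 1 < p ^ (f / r) := hF₀ ▸ Fintype.one_lt_card
      rw [← h1, Nat.mul_div_cancel_left _ (by omega)]
    · obtain ⟨μ, g0, h0⟩ := hsurj g hg
      have e := congrArg Matrix.GeneralLinearGroup.det h0
      rw [map_mul, det_scalar_gl] at e
      rw [← inv_mul_cancel_left (μ ^ n) (Matrix.GeneralLinearGroup.det g), ← e]
      refine mul_mem (Subgroup.mem_sup_left ⟨μ⁻¹, by simp⟩) (Subgroup.mem_sup_right ?_)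
      show σ _ = _
      rw [Matrix.GeneralLinearGroup.val_det_apply]
      rw [show ((Matrix.GeneralLinearGroup.map ι g0 : GL (Fin n) F) : Matrix (Fin n) (Fin n) F) =
        (g0 : Matrix (Fin n) (Fin n) F₀).map ι from rfl, ← RingHom.mapMatrix_apply, ← RingHom.map_det]
      exact hfixι _
    · obtain ⟨c, hc, hc'⟩ := exists_det_diag (n := n) (by omega) w
      refine ⟨c, ?_, hc⟩
      rw [frobP_conjP, show mapGL σ c = c from Units.ext (Matrix.ext fun i j => ?_)]
      show σ ((c : Matrix (Fin n) (Fin n) F) i j) = (c : Matrix (Fin n) (Fin n) F) i j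
      rw [hc', Matrix.diagonal_apply]
      split_ifs with hij
      · rw [Function.update_apply]
        split_ifs
        · exact hw
        · simp
      · simp

theorem involution_unique [Fintype F] {σ τ : F ≃+* F} (hσ : orderOf σ = 2) (hτ : orderOf τ = 2) : σ = τ := by
  have key : ∀ {σ τ : F ≃+* F}, orderOf σ = 2 → orderOf τ = 2 → ∀ a, σ a = a → τ a = a := by
    intro σ τ hσ hτ a ha
    have hset : (fixed σ : Set F) = (fixed τ : Set F) := by
      obtain ⟨p, hp⟩ := CharP.exists F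
      haveI : Fact p.Prime := ⟨CharP.char_is_prime F p⟩
      obtain ⟨f, -, hf⟩ := FiniteField.card F p
      obtain ⟨-, h1⟩ := fixed_card_eq hf σ
      obtain ⟨-, h2⟩ := fixed_card_eq hf τ
      rw [hσ] at h1; rw [hτ] at h2
      have hroot : ∀ {ρ : F ≃+* F}, Nat.card (fixed ρ) = p ^ ((f : ℕ) / 2) →
          (fixed ρ : Set F) ⊆ {z | z ^ p ^ ((f : ℕ) / 2) = z} := by
        intro ρ hρ z hz
        let _ : Fintype (fixed ρ) := Fintype.ofFinite _
        have := FiniteField.pow_card (⟨z, hz⟩ : fixed ρ)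
        rw [← Nat.card_eq_fintype_card, hρ] at this
        exact congrArg Subtype.val this
      have hle : ({z : F | z ^ p ^ ((f : ℕ) / 2) = z}).ncard ≤ p ^ ((f : ℕ) / 2) := by
        have hq : 1 < p ^ ((f : ℕ) / 2) := by
          rw [← h1]; exact Finite.one_lt_card
        have hne : (Polynomial.X ^ (p ^ ((f : ℕ) / 2)) - Polynomial.X : Polynomial F) ≠ 0 :=
          FiniteField.X_pow_card_sub_X_ne_zero F hq
        refine le_trans (Set.ncard_le_ncard (fun z hz => ?_) (Finset.finite_toSet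
          (Polynomial.X ^ (p ^ ((f : ℕ) / 2)) - Polynomial.X : Polynomial F).roots.toFinset)) ?_
        · rw [Finset.mem_coe, Multiset.mem_toFinset, Polynomial.mem_roots hne, Polynomial.IsRoot,
            Polynomial.eval_sub, Polynomial.eval_pow, Polynomial.eval_X, sub_eq_zero]
          exact hz
        · rw [Set.ncard_coe_finset]
          refine le_trans (Multiset.toFinset_card_le _) (le_trans (Polynomial.card_roots' _) ?_)
          rw [FiniteField.X_pow_card_sub_X_natDegree_eq F hq]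
      have e1 := Set.eq_of_subset_of_ncard_le (hroot h1) (hle.trans (le_of_eq (h1.symm.trans (Nat.card_coe_set_eq _))))
      have e2 := Set.eq_of_subset_of_ncard_le (hroot h2) (hle.trans (le_of_eq (h2.symm.trans (Nat.card_coe_set_eq _))))
      rw [e1, e2]
    have : a ∈ (fixed τ : Set F) := hset ▸ mem_fixed.2 ha
    exact mem_fixed.1 this
  have hinv : ∀ {ρ : F ≃+* F}, orderOf ρ = 2 → ∀ a, ρ (ρ a) = a := fun {ρ} hρ a => by
    have := RingEquiv.congr_fun (hρ ▸ pow_orderOf_eq_one ρ : ρ ^ 2 = 1) a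
    rw [pow_two] at this
    exact this
  refine RingEquiv.ext fun a => ?_
  have e1 := key hσ hτ (a + σ a) (by rw [map_add, hinv hσ, add_comm])
  have e2 := key hσ hτ (a * σ a) (by rw [map_mul, hinv hσ, mul_comm])
  rw [map_add] at e1
  rw [map_mul] at e2
  have e3 : (τ a - a) * (τ a - σ a) = 0 := by linear_combination τ a * e1 - e2
  rcases mul_eq_zero.1 e3 with h | h
  · have ha := sub_eq_zero.1 h
    rw [ha, key hτ hσ a ha]
  · exact (sub_eq_zero.1 h).symm

theorem graph_main [Fintype F] {p f : ℕ} [Fact p.Prime] (hF : Fintype.card F = p ^ f) (hn : 3 ≤ n)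
    {x : MulAut PSLn} (hx : IsGraphFieldAutClassPSL x) (hx2 : orderOf x = 2) :
    Even f ∧ (∀ y : MulAut PSLn, IsGraphFieldAutClassPSL y → orderOf y = 2 → IsConjUnder (inndiagPSL n F) x y) ∧
      Nonempty (↥(inndiagPSL n F ⊓ Subgroup.centralizer {x}) ≃* PGU n F (p ^ (f / 2))) ∧
      splitClassCount (inndiagPSL n F) (Inn PSLn) x = Nat.gcd n (p ^ (f / 2) - 1) := by
  have hn2 : 2 ≤ n := by omega
  have hget : ∀ {y : MulAut PSLn}, IsGraphFieldAutClassPSL y → orderOf y = 2 →
      ∃ (σ : F ≃+* F) (a : GL (Fin n) F), orderOf σ = 2 ∧ y = conjP a * (frobP σ * itP) * (conjP a)⁻¹ := by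
    intro y hy hy2
    obtain ⟨-, σ, a, hσ, ha⟩ := exists_standard_graphField hy
    have ho : orderOf (frobP σ * itP : MulAut PSLn) = 2 := by
      rw [← hy2, ha]
      exact (orderOf_injective (MulAut.conj (conjP a)).toMonoidHom (MulAut.conj (conjP a)).injective _).symm
    exact ⟨σ, a, (graphField_order hn Nat.prime_two ho hσ).2, ha⟩
  obtain ⟨σ, a0, hσ, hx'⟩ := hget hx hx2
  obtain ⟨hdvd, hcard⟩ := fixed_card_eq hF σ
  rw [hσ] at hdvd hcard
  have hinv : ∀ a, σ (σ a) = a := fun a => by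
    have := RingEquiv.congr_fun (hσ ▸ pow_orderOf_eq_one σ : σ ^ 2 = 1) a
    rw [pow_two] at this
    exact this
  have hFq : Fintype.card F = (p ^ (f / 2)) ^ 2 := by rw [hF, ← pow_mul, Nat.div_mul_cancel hdvd]
  have hpow : ∀ a, σ a = a ^ p ^ (f / 2) := by
    obtain ⟨τ, hτne, hτ, hτ2⟩ := exists_frobSq hFq
    have hτo : orderOf τ = 2 := orderOf_eq_prime (RingEquiv.ext fun a => by rw [pow_two]; exact hτ2 a) hτne
    rw [involution_unique hσ hτo]
    exact hτ
  have hGU : ∀ u : GL (Fin n) F, u ∈ GU n F (p ^ (f / 2)) ↔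
      (u : Matrix (Fin n) (Fin n) F) * ((u : Matrix (Fin n) (Fin n) F).map σ)ᵀ = 1 := by
    intro u
    rw [mul_eq_one_comm]
    have hform : ∀ x y, hermForm n F (p ^ (f / 2)) ((u : Matrix (Fin n) (Fin n) F) *ᵥ x)
        ((u : Matrix (Fin n) (Fin n) F) *ᵥ y) =
        x ⬝ᵥ (((u : Matrix (Fin n) (Fin n) F)ᵀ * (u : Matrix (Fin n) (Fin n) F).map σ) *ᵥ fun k => σ (y k)) := by
      intro x y
      rw [← mulVec_mulVec, dotProduct_mulVec x, vecMul_transpose]
      show ∑ i, _ * _ ^ _ = ∑ i, _ * _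
      refine Finset.sum_congr rfl fun i _ => ?_
      congr 1
      rw [← hpow, mulVec, dotProduct, map_sum, mulVec, dotProduct]
      exact Finset.sum_congr rfl fun j _ => map_mul _ _ _
    rw [mem_GU_iff]
    constructor
    · intro h
      have h' : (u : Matrix (Fin n) (Fin n) F)ᵀ * (u : Matrix (Fin n) (Fin n) F).map σ = 1 := by
        ext i j
        have e := h (ev i) (ev j)
        rw [hform] at e
        have h1 : (fun k => σ ((ev j : Fin n → F) k)) = ev j := by
          funext k; by_cases hk : k = j <;> simp [ev, hk]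
        rw [h1] at e
        simp [ev, mulVec_single_one, hermForm, Pi.single_apply, hpow, zero_pow (pow_ne_zero _ (Fact.out : p.Prime).ne_zero)] at e
        rw [e, Matrix.one_apply]
        simp only [eq_comm]
      have := congrArg (fun m : Matrix (Fin n) (Fin n) F => mᵀ) h'
      simpa [transpose_mul] using this
    · intro h x y
      have h' : (u : Matrix (Fin n) (Fin n) F)ᵀ * (u : Matrix (Fin n) (Fin n) F).map σ = 1 := by
        have := congrArg (fun m : Matrix (Fin n) (Fin n) F => mᵀ) h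
        simpa [transpose_mul] using this
      rw [hform, h', one_mulVec]
      show ∑ i, _ * _ = ∑ i, _ * _ ^ _
      simp [hpow]
  set X : MulAut PSLn := frobP σ * itP
  have hunit : ∀ u : GL (Fin n) F, (u : Matrix (Fin n) (Fin n) F) * ((u : Matrix (Fin n) (Fin n) F).map σ)ᵀ = 1 →
      conjP u * X = X * conjP u := by
    intro u hu
    rw [show X = frobP σ * itP from rfl, graphFieldShift]
    congr 2
    have e1 := mapGL_transpose_inv σ u
    refine (Units.ext ?_).symm
    exact left_inv_eq_right_inv e1 (mul_eq_one_comm.1 hu)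
  have hsurj : ∀ g : GL (Fin n) F, conjP g * X = X * conjP g →
      ∃ μ : Fˣ, sc μ * g ∈ GU n F (p ^ (f / 2)) := by
    intro g hg
    rw [show X = frobP σ * itP from rfl, graphFieldShift, mul_left_inj] at hg
    obtain ⟨-, c, hc⟩ := scalar_of_conj_frob_eq_one hn2 (g := g⁻¹ * mapGL σ (itGL g)) (σ := 1)
      (by rw [frobP_one, mul_one, map_mul, map_inv, ← hg, inv_mul_cancel])
    rw [inv_mul_eq_iff_eq_mul] at hc
    have hc' : ((mapGL σ (itGL g) : GL (Fin n) F) : Matrix (Fin n) (Fin n) F) =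
        (c : F) • (g : Matrix (Fin n) (Fin n) F) := by
      rw [hc, Units.val_mul]
      show (g : Matrix (Fin n) (Fin n) F) * Matrix.scalar (Fin n) (c : F) = _
      rw [scalar_apply, ← smul_one_eq_diagonal, mul_smul_comm, mul_one]
    have h1 : (c : F) • ((g : Matrix (Fin n) (Fin n) F) * ((g : Matrix (Fin n) (Fin n) F).map σ)ᵀ) = 1 := by
      rw [← smul_mul_assoc, ← hc', mapGL_transpose_inv]
    have hfix : σ (c : F) = c := by
      let i0 : Fin n := ⟨0, by omega⟩
      have e := congrFun (congrFun h1 i0) i0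
      simp [Matrix.mul_apply] at e
      have e' := congrArg σ e
      rw [map_mul, map_sum, map_one] at e'
      simp only [map_mul, hinv] at e'
      have hsum : (∑ x, σ ((g : Matrix (Fin n) (Fin n) F) i0 x) * (g : Matrix (Fin n) (Fin n) F) i0 x) =
          ∑ x, (g : Matrix (Fin n) (Fin n) F) i0 x * σ ((g : Matrix (Fin n) (Fin n) F) i0 x) :=
        Finset.sum_congr rfl fun _ _ => mul_comm _ _
      rw [hsum] at e'
      exact mul_right_cancel₀ (right_ne_zero_of_mul_eq_one e) (e'.trans e.symm)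
    obtain ⟨μ, hμ⟩ := nrm_surjective σ hσ two_pos (y := c) hfix
    refine ⟨μ, (hGU _).2 ?_⟩
    have hμ' := congrArg Units.val hμ
    rw [coe_nrm, Finset.prod_range_succ, Finset.prod_range_one, pow_zero, pow_one, RingAut.one_apply] at hμ'
    have hs : ((sc μ * g : GL (Fin n) F) : Matrix (Fin n) (Fin n) F) = (μ : F) • (g : Matrix (Fin n) (Fin n) F) := by
      show Matrix.scalar (Fin n) (μ : F) * _ = _
      rw [scalar_apply, ← smul_one_eq_diagonal, smul_mul_assoc, one_mul]
    rw [hs, show ((μ : F) • (g : Matrix (Fin n) (Fin n) F)).map σ = σ (μ : F) • (g : Matrix (Fin n) (Fin n) F).map σ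
      from Matrix.ext fun i j => map_mul σ _ _, transpose_smul, smul_mul_smul_comm, hμ', h1]
  refine ⟨(even_iff_two_dvd).2 hdvd, fun y hy hy2 => ?_, ?_, ?_⟩
  · obtain ⟨τ, b, hτ, hy'⟩ := hget hy hy2
    obtain rfl := involution_unique hσ hτ
    refine ⟨conjP (b * a0⁻¹), mem_inndiag_iff.2 ⟨_, rfl⟩, ?_⟩
    rw [hy', hx', map_mul, map_inv, show X = frobP σ * itP from rfl]; group
  · let Φ : ↥(GU n F (p ^ (f / 2))) →* MulAut PSLn := conjP.comp (GU n F (p ^ (f / 2))).subtype
    have hker : Φ.ker = (Geo.scalars (Fin n) F).subgroupOf (GU n F (p ^ (f / 2))) := by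
      ext u
      rw [MonoidHom.mem_ker, Subgroup.mem_subgroupOf]
      show conjP u.1 = 1 ↔ _
      rw [← MonoidHom.mem_ker, conjP_ker hn2, Matrix.GeneralLinearGroup.center_eq_range_scalar]
      rfl
    obtain ⟨E⟩ := centralizer_iso hx' Φ (fun u => ⟨mem_inndiag_iff.2 ⟨_, rfl⟩, hunit _ ((hGU _).1 u.2)⟩)
      (fun g hg => by
        obtain ⟨μ, hμ⟩ := hsurj g hg
        exact ⟨⟨_, hμ⟩, by show conjP (sc μ * g) = _; rw [map_mul, conjP_scalar, one_mul]⟩)
    exact ⟨E.trans (QuotientGroup.quotientMulEquivOfEq hker)⟩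
  · rw [split_count hn2 hx' (nrm σ 2).ker (fun g hg => ?_) (fun w hw => ?_)]
    · congr 1
      rw [Subgroup.index_ker, ← hcard, ← card_fixedUnits]
      have e : (nrm σ 2).range = fixedUnits σ := by
        refine le_antisymm ?_ fun y hy => MonoidHom.mem_range.2 (nrm_surjective σ hσ two_pos hy)
        rintro _ ⟨y, rfl⟩
        show σ _ = _
        rw [coe_nrm, Finset.prod_range_succ, Finset.prod_range_one, pow_zero, pow_one, RingAut.one_apply,
          map_mul, hinv, mul_comm]
      rw [e]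
    · obtain ⟨μ, hμ⟩ := hsurj g hg
      have e : Matrix.GeneralLinearGroup.det g = (μ ^ n)⁻¹ * Matrix.GeneralLinearGroup.det (sc μ * g) := by
        rw [map_mul, det_scalar_gl, inv_mul_cancel_left]
      rw [e]
      refine mul_mem (Subgroup.mem_sup_left ⟨μ⁻¹, by simp⟩) (Subgroup.mem_sup_right ?_)
      rw [MonoidHom.mem_ker]
      refine Units.ext ?_
      rw [coe_nrm, Finset.prod_range_succ, Finset.prod_range_one, pow_zero, pow_one, RingAut.one_apply,
        Matrix.GeneralLinearGroup.val_det_apply, Units.val_one]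
      have h1 := congrArg Matrix.det ((hGU _).1 hμ)
      rw [det_mul, det_transpose, det_one] at h1
      rwa [RingEquiv.map_det]
    · obtain ⟨c, hc, hc'⟩ := exists_det_diag (n := n) (by omega) w
      refine ⟨c, hunit c ?_, hc⟩
      rw [hc', diagonal_map (map_zero σ), diagonal_transpose, diagonal_mul_diagonal, ← Matrix.diagonal_one]
      congr 1
      funext i
      have hw' := congrArg Units.val (MonoidHom.mem_ker.1 hw)
      rw [coe_nrm, Finset.prod_range_succ, Finset.prod_range_one, pow_zero, pow_one, RingAut.one_apply] at hw'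
      by_cases hi : i = ⟨0, by omega⟩
      · subst hi; simpa using hw'
      · simp [hi]

end Cfsg.Lib.Classical.PSLAut
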